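import Cfsg.Agent.QdInv.AlpLyons
/-!
A generalized Alperin–Lyons argument: a family of subgroups `z(T)` of a normal `p`-subgroup, `T` Sylow.
-/
set_option autoImplicit false
set_option linter.all false

namespace Cfsg.Agent.ZJFail

open Cfsg Cfsg.Agent.H33 Cfsg.Agent.QdInv

section AL

variable {G : Type*} [Group G] [Finite G] {p : ℕ} [hp : Fact p.Prime]

/-- the quadratic `p`-elements -/
def Lam (p : ℕ) (P : Subgroup G) : Set G := {x | (∃ k, x ^ p ^ k = 1) ∧ H11.Quad x P}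

theorem Lam_conj {P : Subgroup G} [P.Normal] (x g : G) (hx : x ∈ Lam p P) : g * x * g⁻¹ ∈ Lam p P := by
  obtain ⟨⟨k, hk⟩, hq⟩ := hx
  exact ⟨⟨k, by rw [conj_pow, hk]; group⟩, hq.conj g⟩

/-- `w` is the member belonging to the conjugate `T` of `S` -/
def ZS (S z T w : Subgroup G) : Prop := ∃ g : G, cj g S = T ∧ cj g z = w

theorem ZS.cj {S z T w : Subgroup G} (h : ZS S z T w) (x : G) : ZS S z (H33.cj x T) (H33.cj x w) := by
  obtain ⟨g, rfl, rfl⟩ := h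
  exact ⟨x * g, cj_mul _ _ _, cj_mul _ _ _⟩

theorem ZS.unique {S z T w w' : Subgroup G} (hN : Subgroup.normalizer (S : Set G) ≤ Subgroup.normalizer (z : Set G))
    (h : ZS S z T w) (h' : ZS S z T w') : w = w' := by
  obtain ⟨g, hg, rfl⟩ := h
  obtain ⟨g', hg', rfl⟩ := h'
  have h1 : g'⁻¹ * g ∈ Subgroup.normalizer (S : Set G) := by
    rw [mem_norm_iff, cj_mul, hg, ← hg', cj_inv_cj]
  have h2 := mem_norm_iff.1 (hN h1)
  rw [cj_mul] at h2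
  nth_rewrite 2 [← h2]
  rw [cj_cj_inv]

theorem exists_pair' (S : Sylow p G) (P z : Subgroup G) [hPn : P.Normal] (hP : IsPGroup p P)
    (hz : Subgroup.normalizer (z : Set G) ≠ ⊤)
    (hW : Subgroup.normalizer (Subgroup.closure (Lam p P ∩ (S : Subgroup G)) : Set G) ≤
      Subgroup.normalizer (z : Set G)) :
    ∃ (a b g₀ : G), H11.Quad a P ∧ H11.Quad b P ∧ (∃ k, a ^ p ^ k = 1) ∧ (∃ k, b ^ p ^ k = 1) ∧
      (∀ T' : Subgroup G, IsPGroup p T' → a ∈ T' → T' ≤ Subgroup.closure {a, b} →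
        Subgroup.closure {a, b} ⊓ Subgroup.normalizer (T' : Set G) ≤ Subgroup.normalizer (cj g₀ z : Set G)) ∧
      ∀ N : Subgroup G, cj g₀ z ≤ N → Subgroup.closure {a, b} ≤ Subgroup.normalizer (N : Set G) →
        ∃ g ∈ Subgroup.closure {a, b}, (orderOf g).Coprime p ∧ g ∉ Subgroup.centralizer (N : Set G) := by
  classical
  obtain ⟨Λ, hΛdef⟩ : ∃ Λ : Set G, Λ = Lam p P := ⟨_, rfl⟩
  rw [← hΛdef] at hW
  have hΛ : ∀ x g : G, x ∈ Λ → g * x * g⁻¹ ∈ Λ := by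
    intro x g hx
    rw [hΛdef] at hx ⊢
    exact Lam_conj x g hx
  have hNz : Subgroup.normalizer ((S : Subgroup G) : Set G) ≤ Subgroup.normalizer (z : Set G) :=
    (closure_inter_norm Λ hΛ _).trans hW
  have huniq : ∀ {T w w' : Subgroup G}, ZS (S : Subgroup G) z T w → ZS (S : Subgroup G) z T w' → w = w' :=
    fun h h' => ZS.unique hNz h h'
  have hT : ∀ T : Subgroup G, IsSyl p T ⊤ → ∃ w, ZS (S : Subgroup G) z T w := by
    intro T hT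
    obtain ⟨g, -, hg⟩ := hT.conj_eq (isSyl_top S)
    exact ⟨cj g z, g, hg, rfl⟩
  have hWT : ∀ T w : Subgroup G, ZS (S : Subgroup G) z T w →
      Subgroup.normalizer (Subgroup.closure (Λ ∩ T) : Set G) ≤ Subgroup.normalizer (w : Set G) := by
    rintro T w ⟨g, hg, rfl⟩
    have h2 : Subgroup.closure (Λ ∩ T) = cj g (Subgroup.closure (Λ ∩ (S : Subgroup G))) := by
      rw [cj_closure]
      congr 1
      rw [← hg]
      ext x
      constructor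
      · rintro ⟨hx1, hx2⟩
        refine ⟨g⁻¹ * x * g, ⟨?_, mem_cj.1 hx2⟩, by group⟩
        have := hΛ x g⁻¹ hx1
        rwa [inv_inv] at this
      · rintro ⟨y, ⟨hy1, hy2⟩, rfl⟩
        exact ⟨hΛ y g hy1, conj_mem_cj hy2⟩
    rw [h2, ← cj_normalizer, ← cj_normalizer]
    exact cj_mono hW
  -- choose the pair
  let nn : Subgroup G → Subgroup G → ℕ := fun T₁ T₂ => (Λ ∩ (T₁ ∩ T₂ : Set G)).ncard
  let Pr : ℕ → Prop := fun n => ∃ T₁ T₂ w₁ w₂ : Subgroup G, IsSyl p T₁ ⊤ ∧ IsSyl p T₂ ⊤ ∧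
    ZS (S : Subgroup G) z T₁ w₁ ∧ ZS (S : Subgroup G) z T₂ w₂ ∧ w₁ ≠ w₂ ∧ nn T₁ T₂ = n
  have hex : ∃ n : ℕ, Pr n := by
    by_contra hcon
    apply hz
    rw [eq_top_iff]
    intro g _
    rw [mem_norm_iff]
    by_contra h1
    apply hcon
    refine ⟨_, cj g (S : Subgroup G), S, cj g z, z, ?_, isSyl_top S, ⟨g, rfl, rfl⟩,
      ⟨1, cj_one _, cj_one _⟩, h1, rfl⟩
    have := (isSyl_top S).conj g
    rwa [cj_top] at this
  have hbd : ∀ n : ℕ, Pr n → n ≤ Nat.card G := by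
    rintro n ⟨T₁, T₂, K₁, K₂, -, -, -, -, -, rfl⟩
    rw [← Set.ncard_univ]
    exact Set.ncard_le_ncard (Set.subset_univ _) (Set.toFinite _)
  obtain ⟨T₁, T₂, w₁, w₂, hT₁, hT₂, hw₁, hw₂, hwne, hnn⟩ :=
    Nat.findGreatest_spec (P := Pr) (hbd _ hex.choose_spec) hex.choose_spec
  have hmax : ∀ T T' w w' : Subgroup G, IsSyl p T ⊤ → IsSyl p T' ⊤ → ZS (S : Subgroup G) z T w →
      ZS (S : Subgroup G) z T' w' → w ≠ w' → nn T T' ≤ nn T₁ T₂ := by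
    intro T T' w w' h1 h2 h3 h4 h5
    rw [hnn]
    exact Nat.le_findGreatest (hbd _ ⟨T, T', w, w', h1, h2, h3, h4, h5, rfl⟩)
      ⟨T, T', w, w', h1, h2, h3, h4, h5, rfl⟩
  obtain ⟨D, hD⟩ : ∃ D : Subgroup G, D = Subgroup.closure (Λ ∩ (T₁ ∩ T₂ : Set G)) := ⟨_, rfl⟩
  have hDT₁ : D ≤ T₁ := by
    rw [hD, Subgroup.closure_le]; exact fun x hx => hx.2.1
  have hDT₂ : D ≤ T₂ := by
    rw [hD, Subgroup.closure_le]; exact fun x hx => hx.2.2
  have hΛD : Λ ∩ D = Λ ∩ (T₁ ∩ T₂ : Set G) := by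
    ext x
    constructor
    · rintro ⟨h1, h2⟩
      exact ⟨h1, hDT₁ h2, hDT₂ h2⟩
    · rintro ⟨h1, h2⟩
      refine ⟨h1, ?_⟩
      rw [hD]
      exact Subgroup.subset_closure ⟨h1, h2⟩
  have hDcl : Subgroup.closure (Λ ∩ D) = D := by rw [hΛD, hD]
  have hcardΛ : ∀ T T' : Subgroup G, IsSyl p T ⊤ → IsSyl p T' ⊤ → (Λ ∩ T : Set G).ncard = (Λ ∩ T').ncard := by
    have key : ∀ T T' : Subgroup G, IsSyl p T ⊤ → IsSyl p T' ⊤ →
        (Λ ∩ T : Set G).ncard ≤ (Λ ∩ T').ncard := by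
      intro T T' h1 h2
      obtain ⟨g, -, hg⟩ := h2.conj_eq h1
      refine Set.ncard_le_ncard_of_injOn (fun x => g * x * g⁻¹) ?_ ?_ (Set.toFinite _)
      · rintro x ⟨hx1, hx2⟩
        refine ⟨hΛ x g hx1, ?_⟩
        rw [← hg]
        exact conj_mem_cj hx2
      · intro x _ y _ hxy
        exact (MulAut.conj g).injective hxy
    intro T T' h1 h2
    exact le_antisymm (key T T' h1 h2) (key T' T h2 h1)
  have hne : ∀ (T T' w w' : Subgroup G), IsSyl p T ⊤ → IsSyl p T' ⊤ → ZS (S : Subgroup G) z T w →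
      ZS (S : Subgroup G) z T' w' → w ≠ w' → D ≤ T' → Subgroup.closure (Λ ∩ T) ≠ D := by
    intro T T' w w' h1 h2 h3 h4 h5 h6 h7
    have h8 : Λ ∩ (T : Set G) ⊆ Λ ∩ (T' : Set G) := by
      rintro x ⟨hx1, hx2⟩
      refine ⟨hx1, h6 ?_⟩
      rw [← h7]
      exact Subgroup.subset_closure ⟨hx1, hx2⟩
    have h9 : Λ ∩ (T : Set G) = Λ ∩ (T' : Set G) :=
      Set.eq_of_subset_of_ncard_le h8 (hcardΛ T' T h2 h1).le (Set.toFinite _)
    obtain ⟨N₀, hN₀⟩ : ∃ N₀ : Subgroup G, N₀ = Subgroup.normalizer (Subgroup.closure (Λ ∩ T) : Set G) := ⟨_, rfl⟩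
    have h10 : N₀ ≤ Subgroup.normalizer (w : Set G) := by rw [hN₀]; exact hWT T w h3
    have h11 : T ≤ N₀ := by
      rw [hN₀]; exact Subgroup.le_normalizer.trans (closure_inter_norm Λ hΛ T)
    have h12 : T' ≤ N₀ := by
      rw [hN₀, h9]; exact Subgroup.le_normalizer.trans (closure_inter_norm Λ hΛ T')
    obtain ⟨n, hn, hnT⟩ := (h2.mono h12 le_top : IsSyl p T' N₀).conj_eq (h1.mono h11 le_top : IsSyl p T N₀)
    have h13 := h3.cj n
    rw [hnT, mem_norm_iff.1 (h10 hn)] at h13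
    exact h5 (huniq h13 h4)
  obtain ⟨a, haΛ, haT, haD, haN⟩ := exists_norm_elem hT₁.2.1 Λ hΛ hDT₁ hDcl
    (hne T₁ T₂ w₁ w₂ hT₁ hT₂ hw₁ hw₂ hwne hDT₂)
  obtain ⟨b, hbΛ, hbT, hbD, hbN⟩ := exists_norm_elem hT₂.2.1 Λ hΛ hDT₂ hDcl
    (hne T₂ T₁ w₂ w₁ hT₂ hT₁ hw₂ hw₁ (Ne.symm hwne) hDT₁)
  -- key: overgroups of `D` and one more element
  have key : ∀ (T' w' : Subgroup G) (c : G), IsSyl p T' ⊤ → ZS (S : Subgroup G) z T' w' → c ∈ Λ → c ∈ T' →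
      c ∉ D → ∀ T w : Subgroup G, IsSyl p T ⊤ → ZS (S : Subgroup G) z T w → D ≤ T → D ≤ T' → c ∈ T → w = w' := by
    intro T' K' c h1 h2 h3 h4 h5 T K h6 h7 h8 h9 h10
    by_contra hcon
    have h11 := hmax T T' K K' h6 h1 h7 h2 hcon
    have h12 : insert c (Λ ∩ (T₁ ∩ T₂ : Set G)) ⊆ Λ ∩ (T ∩ T' : Set G) := by
      rw [← hΛD]
      rintro x (rfl | ⟨hx1, hx2⟩)
      · exact ⟨h3, h10, h4⟩
      · exact ⟨hx1, h8 hx2, h9 hx2⟩
    have h13 : c ∉ Λ ∩ (T₁ ∩ T₂ : Set G) := by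
      rw [← hΛD]
      exact fun h => h5 h.2
    have h14 := Set.ncard_le_ncard h12 (Set.toFinite _)
    rw [Set.ncard_insert_of_notMem h13 (Set.toFinite _)] at h14
    change _ + 1 ≤ nn T T' at h14
    change (Λ ∩ (T₁ ∩ T₂ : Set G)).ncard + 1 ≤ nn T T' at h14
    have h15 : nn T₁ T₂ = (Λ ∩ (T₁ ∩ T₂ : Set G)).ncard := rfl
    omega
  have keyA := key T₁ w₁ a hT₁ hw₁ haΛ haT haD
  have keyB := key T₂ w₂ b hT₂ hw₂ hbΛ hbT hbD
  obtain ⟨L, hL⟩ : ∃ L : Subgroup G, L = Subgroup.closure {a, b} := ⟨_, rfl⟩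
  have haL : a ∈ L := by rw [hL]; exact Subgroup.subset_closure (by simp)
  have hbL : b ∈ L := by rw [hL]; exact Subgroup.subset_closure (by simp)
  have hLD : L ≤ Subgroup.normalizer (D : Set G) := by
    rw [hL, Subgroup.closure_le]
    rintro x (rfl | hx)
    · exact haN
    · rw [Set.mem_singleton_iff.1 hx]; exact hbN
  have hDp : IsPGroup p D := isPGroup_sub hT₁.2.1 hDT₁
  have hsup : ∀ T' : Subgroup G, IsPGroup p T' → T' ≤ L → ∃ T : Subgroup G, IsSyl p T ⊤ ∧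
      T' ⊔ D ≤ T := by
    intro T' h1 h2
    have h3 : IsPGroup p ↥(T' ⊔ D) := h1.to_sup_of_normal_right' hDp (h2.trans hLD)
    obtain ⟨T, h4, h5⟩ := IsSyl.exists_of_le (H := ⊤) le_top h3
    exact ⟨T, h5, h4⟩
  -- the first property
  have hA1 : ∀ T' : Subgroup G, IsPGroup p T' → a ∈ T' → T' ≤ L →
      L ⊓ Subgroup.normalizer (T' : Set G) ≤ Subgroup.normalizer (w₁ : Set G) := by
    intro T' hT'p haT' hT'L
    obtain ⟨T, hTs, hTR⟩ := hsup T' hT'p hT'L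
    obtain ⟨w, hw⟩ := hT T hTs
    have h1 : w = w₁ := keyA T _ hTs hw (le_sup_right.trans hTR) hDT₁
      (hTR (Subgroup.mem_sup_left haT'))
    rw [h1] at hw
    rintro n ⟨hnL, hnT⟩
    have h2 : cj n (T' ⊔ D) = T' ⊔ D := by
      rw [cj_sup, mem_norm_iff.1 hnT, mem_norm_iff.1 (hLD hnL)]
    have h3 : T' ⊔ D ≤ cj n T := by rw [← h2]; exact cj_mono hTR
    have h4 : IsSyl p (cj n T) ⊤ := by
      have := hTs.conj n
      rwa [cj_top] at this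
    have h5 : cj n w₁ = w₁ := keyA (cj n T) _ h4 (hw.cj n) (le_sup_right.trans h3) hDT₁
      (h3 (Subgroup.mem_sup_left haT'))
    exact mem_norm_iff.2 h5
  obtain ⟨g₀, hg₀S, hg₀⟩ := hw₁
  have hw₁ : ZS (S : Subgroup G) z T₁ w₁ := ⟨g₀, hg₀S, hg₀⟩
  rw [hΛdef] at haΛ hbΛ
  refine ⟨a, b, g₀, haΛ.2, hbΛ.2, haΛ.1, hbΛ.1, ?_, ?_⟩
  · rw [hg₀, ← hL]
    exact hA1
  · rw [hg₀, ← hL]
    intro N hzN hLN
    by_contra hcon
    push Not at hcon
    have hCnn : L ≤ Subgroup.normalizer ((L ⊓ Subgroup.centralizer (N : Set G) : Subgroup G) : Set G) := by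
      intro y hy
      refine norm_inf (Subgroup.le_normalizer hy) ?_
      rw [mem_norm_iff, cj_centralizer, mem_norm_iff.1 (hLN hy)]
    obtain ⟨R, haR, hR⟩ := IsSyl.exists_of_le (p := p) (H := L) (R := Subgroup.zpowers a)
      ((Subgroup.zpowers_le).2 haL) (isPGroup_sub hT₁.2.1 ((Subgroup.zpowers_le).2 haT))
    have haR' : a ∈ R := haR (Subgroup.mem_zpowers a)
    have hRw : R ≤ Subgroup.normalizer (w₁ : Set G) := fun r hr =>
      hA1 R hR.2.1 haR' hR.1 ⟨hR.1 hr, Subgroup.le_normalizer hr⟩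
    have hLw : L ≤ Subgroup.normalizer (w₁ : Set G) := by
      intro l hl
      obtain ⟨c, hc, t, ht, rfl⟩ := hR.sup_eq inf_le_left hCnn (fun y hy hyo => ⟨hy, hcon y hy hyo⟩) l hl
      refine mul_mem ?_ (hRw ht)
      rw [mem_norm_iff]
      apply cj_eq_of_fix
      intro x hx
      rw [(Subgroup.mem_centralizer_iff.1 hc.2 x (hzN hx)).symm]
      group
    obtain ⟨R₂, hbR, hR₂⟩ := IsSyl.exists_of_le (p := p) (H := L) (R := Subgroup.zpowers b)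
      ((Subgroup.zpowers_le).2 hbL) (isPGroup_sub hT₂.2.1 ((Subgroup.zpowers_le).2 hbT))
    obtain ⟨l, hl, hlR⟩ := hR₂.conj_eq hR
    -- `cj l R = R₂`
    obtain ⟨T, hTs, hTR⟩ := hsup R₂ hR₂.2.1 hR₂.1
    obtain ⟨w, hw⟩ := hT T hTs
    have h1 : w = w₂ := keyB T _ hTs hw (le_sup_right.trans hTR) hDT₂
      (hTR (Subgroup.mem_sup_left (hbR (Subgroup.mem_zpowers b))))
    rw [h1] at hw
    have h2 : cj l⁻¹ (R₂ ⊔ D) = R ⊔ D := by
      rw [cj_sup, ← hlR, cj_inv_cj, mem_norm_iff.1 (hLD (inv_mem hl))]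
    have h3 : R ⊔ D ≤ cj l⁻¹ T := by rw [← h2]; exact cj_mono hTR
    have h4 : IsSyl p (cj l⁻¹ T) ⊤ := by
      have := hTs.conj l⁻¹
      rwa [cj_top] at this
    have h5 : cj l⁻¹ w₂ = w₁ := keyA (cj l⁻¹ T) _ h4 (hw.cj l⁻¹) (le_sup_right.trans h3) hDT₁
      (h3 (Subgroup.mem_sup_left haR'))
    have h6 : w₂ = cj l w₁ := by rw [← h5, cj_cj_inv]
    rw [mem_norm_iff.1 (hLw hl)] at h6
    exact hwne h6.symm

end AL

end Cfsg.Agent.ZJFail
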