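import Cfsg.Agent.ZJFail.ALMain
/-!
An eigenvector in `z(T)`: the main statement.
-/
set_option autoImplicit false
set_option linter.all false

namespace Cfsg.Agent.ZJFail

open Cfsg Cfsg.Agent.H33 Cfsg.Agent.QdInv

universe u

section

variable {G : Type u} [Group G] [Finite G] {p : ℕ} [hp : Fact p.Prime]

/-- a rational eigenvector in a section of `z` -/
def EV (p : ℕ) (z : Subgroup G) : Prop :=
  ∃ h ∈ Subgroup.normalizer (z : Set G), ∃ z' ≤ z, h ∈ Subgroup.normalizer (z' : Set G) ∧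
      ∃ x ∈ z, x ∉ z' ∧ x ^ p ∈ z' ∧ ∃ j : ℕ, orderOf (j : ZMod p) = p - 1 ∧ h * x * h⁻¹ * (x ^ j)⁻¹ ∈ z'

theorem EV.cj {z : Subgroup G} (g : G) (h : EV p (H33.cj g z)) : EV p z := by
  obtain ⟨h, hh, z', hz', hh', x, hx, hx', hxp, j, hj, hxj⟩ := h
  have hn : ∀ U : Subgroup G, h ∈ Subgroup.normalizer (U : Set G) →
      g⁻¹ * h * g ∈ Subgroup.normalizer (H33.cj g⁻¹ U : Set G) := by
    intro U hU
    rw [← cj_normalizer]
    have := conj_mem_cj (g := g⁻¹) hU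
    rwa [inv_inv] at this
  refine ⟨g⁻¹ * h * g, ?_, H33.cj g⁻¹ z', ?_, hn z' hh', g⁻¹ * x * g, mem_cj.1 hx, ?_, ?_, j, hj, ?_⟩
  · have := hn _ hh
    rwa [cj_inv_cj] at this
  · have := cj_mono (g := g⁻¹) hz'
    rwa [cj_inv_cj] at this
  · intro h1
    rw [mem_cj] at h1
    apply hx'
    have e : g⁻¹⁻¹ * (g⁻¹ * x * g) * g⁻¹ = x := by group
    rwa [e] at h1
  · have := conj_mem_cj (g := g⁻¹) hxp
    have e : g⁻¹ * x ^ p * g⁻¹⁻¹ = (g⁻¹ * x * g) ^ p := by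
      have := conj_pow (i := p) (a := g⁻¹) (b := x)
      rw [inv_inv] at this
      rw [this, inv_inv]
    rwa [e] at this
  · have h1 := conj_mem_cj (g := g⁻¹) hxj
    have e : g⁻¹ * (h * x * h⁻¹ * (x ^ j)⁻¹) * g⁻¹⁻¹ =
        g⁻¹ * h * g * (g⁻¹ * x * g) * (g⁻¹ * h * g)⁻¹ * ((g⁻¹ * x * g) ^ j)⁻¹ := by
      have := conj_pow (i := j) (a := g⁻¹) (b := x)
      rw [inv_inv] at this
      rw [this]
      group
    rwa [e] at h1

theorem eigen_pair (hp2 : p ≠ 2) (S : Sylow p G) (P z : Subgroup G) [hPn : P.Normal] (hP : IsPGroup p P)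
    (hPc : ∀ x ∈ P, ∀ y ∈ P, x * y = y * x) (hzP : z ≤ P)
    (hz : Subgroup.normalizer (z : Set G) ≠ ⊤)
    (hW : Subgroup.normalizer (Subgroup.closure (Lam p P ∩ (S : Subgroup G)) : Set G) ≤
      Subgroup.normalizer (z : Set G)) : EV p z := by
  obtain ⟨a, b, g₀, hqa, hqb, hap, hbp, hA1, hA2⟩ := exists_pair' S P z hP hz hW
  apply EV.cj g₀
  obtain ⟨w, hw⟩ : ∃ w : Subgroup G, w = cj g₀ z := ⟨_, rfl⟩
  rw [← hw] at hA1 hA2 ⊢
  have hwP : w ≤ P := by
    have := cj_mono (g := g₀) hzP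
    rwa [cj_normal g₀ P, ← hw] at this
  obtain ⟨L, hL⟩ : ∃ L : Subgroup G, L = Subgroup.closure {a, b} := ⟨_, rfl⟩
  have haL : a ∈ L := by rw [hL]; exact Subgroup.subset_closure (by simp)
  -- the closure of `w` under `L`
  obtain ⟨N, hN⟩ : ∃ N : Subgroup G, N = sInf {N : Subgroup G | w ≤ N ∧ L ≤ Subgroup.normalizer (N : Set G)} := ⟨_, rfl⟩
  have hwN : w ≤ N := by rw [hN]; exact le_sInf fun U hU => hU.1
  have hNmin : ∀ U : Subgroup G, w ≤ U → L ≤ Subgroup.normalizer (U : Set G) → N ≤ U := by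
    intro U h1 h2
    rw [hN]; exact sInf_le ⟨h1, h2⟩
  have hLN : L ≤ Subgroup.normalizer (N : Set G) := by
    intro l hl
    apply mem_norm_of_le
    rw [cj_le_iff]
    intro x hx
    rw [hN, Subgroup.mem_sInf] at hx ⊢
    intro U hU
    exact (Subgroup.mem_normalizer_iff.1 (hU.2 hl) x).1 (hx U hU)
  have hNP : N ≤ P := hNmin P hwP (by rw [Subgroup.normalizer_eq_top]; exact le_top)
  have hNp : IsPGroup p N := isPGroup_sub hP hNP
  have hNc : ∀ x ∈ N, ∀ y ∈ N, x * y = y * x := fun x hx y hy => hPc x (hNP hx) y (hNP hy)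
  have hnrm : ∀ U V : Subgroup G, U ≤ N → V ≤ N → V ≤ Subgroup.normalizer (U : Set G) := by
    intro U V hU hV y hy
    apply mem_norm_of_le
    rw [cj_le_iff]
    intro x hx
    rw [hNc y (hV hy) x (hU hx), mul_inv_cancel_right]
    exact hx
  have hcL : ∀ U : Subgroup G, L ≤ Subgroup.normalizer (U : Set G) → ∀ l ∈ L, ∀ x ∈ U, l * x * l⁻¹ ∈ U :=
    fun U hU l hl x hx => (Subgroup.mem_normalizer_iff.1 (hU hl) x).1 hx
  -- maximal `N₀`
  obtain ⟨N₀, ⟨hN₀N, hLN₀, g, hgL, hgo, x₀, hx₀, hgx₀⟩, hmax⟩ : ∃ N₀ : Subgroup G, (N₀ ≤ N ∧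
      L ≤ Subgroup.normalizer (N₀ : Set G) ∧ ∃ g ∈ L, (orderOf g).Coprime p ∧ ∃ x ∈ N, g * x * g⁻¹ * x⁻¹ ∉ N₀) ∧
      ∀ U : Subgroup G, N₀ < U → U ≤ N → L ≤ Subgroup.normalizer (U : Set G) →
        ∀ g ∈ L, (orderOf g).Coprime p → Ce U N g := by
    obtain ⟨N₀, h1, h2⟩ := (wellFounded_gt (α := Subgroup G)).has_min
      {N₀ : Subgroup G | N₀ ≤ N ∧
      L ≤ Subgroup.normalizer (N₀ : Set G) ∧ ∃ g ∈ L, (orderOf g).Coprime p ∧ ∃ x ∈ N, g * x * g⁻¹ * x⁻¹ ∉ N₀} (by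
        obtain ⟨g, hg, hgo, hgc⟩ := hA2 N hwN (by rw [← hL]; exact hLN)
        rw [← hL] at hg
        refine ⟨⊥, bot_le, ?_, g, hg, hgo, ?_⟩
        · intro l _
          apply mem_norm_of_le
          rw [cj_bot]
        · by_contra hcon
          push Not at hcon
          apply hgc
          apply Subgroup.mem_centralizer_iff.2
          intro x hx
          have h1 := Subgroup.mem_bot.1 (hcon x hx)
          rw [mul_inv_eq_one] at h1
          calc x * g = (g * x * g⁻¹) * g := by rw [h1]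
            _ = g * x := by group)
    refine ⟨N₀, h1, fun U hU hUN hLU g hg hgo x hx => ?_⟩
    by_contra hcon
    exact h2 U ⟨hUN, hLU, g, hg, hgo, x, hx, hcon⟩ hU
  have hN₀lt : N₀ < N := by
    refine lt_of_le_of_ne hN₀N ?_
    rintro rfl
    exact hgx₀ (mul_mem (hcL N₀ hLN g hgL x₀ hx₀) (inv_mem hx₀))
  -- minimal `N'`
  obtain ⟨N', ⟨hN₀', hN'N, hLN'⟩, hmin⟩ : ∃ N' : Subgroup G, (N₀ < N' ∧ N' ≤ N ∧
      L ≤ Subgroup.normalizer (N' : Set G)) ∧ ∀ U : Subgroup G, N₀ < U → U < N' →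
      ¬ L ≤ Subgroup.normalizer (U : Set G) := by
    obtain ⟨N', h4, h5⟩ := (wellFounded_lt (α := Subgroup G)).has_min
      {U : Subgroup G | N₀ < U ∧ U ≤ N ∧ L ≤ Subgroup.normalizer (U : Set G)}
      ⟨N, hN₀lt, le_rfl, hLN⟩
    exact ⟨N', h4, fun U hU hUP hLU => h5 U ⟨hU, hUP.le.trans h4.2.1, hLU⟩ hUP⟩
  have hirr : ∀ U, N₀ ≤ U → U ≤ N' → L ≤ Subgroup.normalizer (U : Set G) → U = N₀ ∨ U = N' := by
    intro U h1 h2 h3
    rcases h1.lt_or_eq with h4 | h4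
    · rcases h2.lt_or_eq with h5 | h5
      · exact absurd h3 (hmin U h4 h5)
      · exact Or.inr h5
    · exact Or.inl h4.symm
  have hCe' : ∀ g ∈ L, (orderOf g).Coprime p → Ce N' N g := hmax N' hN₀' hN'N hLN'
  -- `g` acts nontrivially
  have hgN' : ∃ x ∈ N', g * x * g⁻¹ * x⁻¹ ∉ N₀ := by
    by_contra hcon
    push Not at hcon
    exact hgx₀ (ce_of_coprime hNp hNc hN₀'.le hN'N (hLN' hgL) (hLN hgL) hgo (hCe' g hgL hgo) hcon x₀ hx₀)
  -- elementary abelian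
  have hpow : ∀ x ∈ N', x ^ p ∈ N₀ := by
    let U : Subgroup G :=
      { carrier := {x | x ∈ N' ∧ x ^ p ∈ N₀}
        one_mem' := ⟨one_mem _, by rw [one_pow]; exact one_mem _⟩
        mul_mem' := by
          rintro x y ⟨hx, hx'⟩ ⟨hy, hy'⟩
          refine ⟨mul_mem hx hy, ?_⟩
          rw [(show Commute x y from hNc x (hN'N hx) y (hN'N hy)).mul_pow]
          exact mul_mem hx' hy'
        inv_mem' := by
          rintro x ⟨hx, hx'⟩
          exact ⟨inv_mem hx, by rw [inv_pow]; exact inv_mem hx'⟩ }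
    have hU1 : N₀ ≤ U := fun x hx => ⟨hN₀'.le hx, pow_mem hx _⟩
    have hU2 : U ≤ N' := fun x hx => hx.1
    have hLU : L ≤ Subgroup.normalizer (U : Set G) := by
      intro l hl
      apply mem_norm_of_le
      rw [cj_le_iff]
      rintro x ⟨hx, hx'⟩
      refine ⟨hcL N' hLN' l hl x hx, ?_⟩
      rw [conj_pow]
      exact hcL N₀ hLN₀ l hl _ hx'
    rcases hirr U hU1 hU2 hLU with h | h
    · exfalso
      obtain ⟨x, hx, hx'⟩ := SetLike.exists_of_lt hN₀'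
      obtain ⟨k, hk⟩ := hNp ⟨x, hN'N hx⟩
      have hk' : x ^ p ^ k = 1 := congrArg Subtype.val hk
      classical
      have hex : ∃ k, x ^ p ^ k ∈ N₀ := ⟨k, by rw [hk']; exact one_mem _⟩
      have h0 := Nat.find_spec hex
      have hne : Nat.find hex ≠ 0 := by
        intro h1
        rw [h1, pow_zero, pow_one] at h0
        exact hx' h0
      obtain ⟨m, hm⟩ := Nat.exists_eq_succ_of_ne_zero hne
      have h1 : x ^ p ^ m ∈ U := by
        refine ⟨pow_mem hx _, ?_⟩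
        rw [← pow_mul, ← pow_succ]
        rw [hm] at h0
        exact h0
      rw [h] at h1
      exact Nat.find_min hex (m := m) (by omega) h1
    · intro x hx
      rw [← h] at hx
      exact hx.2
  have hcomm : ∀ x ∈ N', ∀ y ∈ N', x * y * x⁻¹ * y⁻¹ ∈ N₀ := by
    intro x hx y hy
    rw [hNc x (hN'N hx) y (hN'N hy)]
    have : y * x * x⁻¹ * y⁻¹ = 1 := by group
    rw [this]; exact one_mem _
  obtain ⟨μ, hμ⟩ := exists_gen p
  obtain ⟨F, j1, j2, j3, cst, π, hcinj, hmul, hzero, T', hT', haT', hT'L, z', hz'L, hz'T, hz'π⟩ :=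
    torus_struct hp2 hN₀' (by rw [← hL]; exact hLN₀) (by rw [← hL]; exact hLN') (hnrm N₀ N' hN₀N hN'N) hpow hcomm
      (g := g) (by rw [← hL]; exact hgL) hgN' (by rw [← hL]; exact hirr) (hqa.mono (hN'N.trans hNP))
      (hqb.mono (hN'N.trans hNP)) hap μ
  have hz'w : z' ∈ Subgroup.normalizer (w : Set G) := hA1 T' hT' haT' hT'L ⟨hz'L, hz'T⟩
  rw [← hL] at hT'L hz'L hA1 hA2
  have hz'c : ∀ x ∈ N', z' * x * z'⁻¹ ∈ N' := hcL N' hLN' z' hz'L
  have hπ1 : π 1 = 0 := (hzero 1 (one_mem _)).2 (one_mem _)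
  have hinv : ∀ x ∈ N', π x⁻¹ = - π x := by
    intro x hx
    have h3 := hmul x hx x⁻¹ (inv_mem hx)
    rw [mul_inv_cancel, hπ1] at h3
    exact (eq_neg_of_add_eq_zero_right h3.symm)
  have hπpow : ∀ x ∈ N', ∀ k : ℕ, π (x ^ k) = (k : F) • π x := by
    intro x hx k
    induction k with
    | zero => rw [pow_zero, hπ1, Nat.cast_zero, zero_smul]
    | succ k ih => rw [pow_succ, hmul _ (pow_mem hx k) _ hx, ih, Nat.cast_succ, add_smul, one_smul]
  have hnn : z' ∈ Subgroup.normalizer ((w ⊓ N₀ : Subgroup G) : Set G) := norm_inf hz'w (hLN₀ hz'L)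
  have hcast : ∀ ν : ZMod p, ((ν.val : ℕ) : F) = cst ν := by
    intro ν
    nth_rewrite 2 [← ZMod.natCast_zmod_val ν]
    rw [map_natCast]
  by_cases hcase : w ⊓ N' ≤ N₀
  swap
  · -- an eigenvector
    obtain ⟨v, ⟨hvw, hvN'⟩, hvN₀⟩ := Set.not_subset.1 hcase
    obtain ⟨v', hv'⟩ : ∃ v' : G, v' = z' * v * z'⁻¹ * (v ^ (μ : ZMod p).val)⁻¹ := ⟨_, rfl⟩
    have hv'w : v' ∈ w := by
      rw [hv']
      exact mul_mem ((Subgroup.mem_normalizer_iff.1 hz'w v).1 hvw) (inv_mem (pow_mem hvw _))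
    have hv'N' : v' ∈ N' := by
      rw [hv']
      exact mul_mem (hz'c v hvN') (inv_mem (pow_mem hvN' _))
    by_cases hv'N₀ : v' ∈ N₀
    · refine ⟨z', hz'w, w ⊓ N₀, inf_le_left, hnn, v, hvw, fun h => hvN₀ h.2, ⟨pow_mem hvw _, hpow v hvN'⟩,
        (μ : ZMod p).val, ?_, ?_⟩
      · rw [ZMod.natCast_zmod_val, orderOf_units]; exact hμ
      · rw [← hv']; exact ⟨hv'w, hv'N₀⟩
    · refine ⟨z', hz'w, w ⊓ N₀, inf_le_left, hnn, v', hv'w, fun h => hv'N₀ h.2, ⟨pow_mem hv'w _, hpow v' hv'N'⟩,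
        ((μ⁻¹ : (ZMod p)ˣ) : ZMod p).val, ?_, ?_⟩
      · rw [ZMod.natCast_zmod_val, orderOf_units, orderOf_inv]; exact hμ
      · refine Subgroup.mem_inf.2 ⟨mul_mem ((Subgroup.mem_normalizer_iff.1 hz'w v').1 hv'w) (inv_mem (pow_mem hv'w _)), ?_⟩
        rw [← hzero _ (mul_mem (hz'c v' hv'N') (inv_mem (pow_mem hv'N' _))), hmul _ (hz'c v' hv'N') _
          (inv_mem (pow_mem hv'N' _)), hinv _ (pow_mem hv'N' _), hπpow v' hv'N', hcast]
        have hv'π : π v' = π (z' * v * z'⁻¹) - cst (μ : ZMod p) • π v := by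
          rw [hv', hmul _ (hz'c v hvN') _ (inv_mem (pow_mem hvN' _)), hinv _ (pow_mem hvN' _), hπpow v hvN', hcast]
          exact (sub_eq_add_neg _ _).symm
        have hv'0 : π v' 0 = 0 := by
          rw [hv'π, Pi.sub_apply, Pi.smul_apply, (hz'π v hvN').1, smul_eq_mul, sub_self]
        have hci : cst ((μ⁻¹ : (ZMod p)ˣ) : ZMod p) = (cst (μ : ZMod p))⁻¹ := by
          have : cst ((μ⁻¹ : (ZMod p)ˣ) : ZMod p) * cst (μ : ZMod p) = 1 := by
            rw [← map_mul, Units.inv_mul, map_one]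
          exact (eq_inv_of_mul_eq_one_left this)
        ext i
        fin_cases i
        · show π (z' * v' * z'⁻¹) 0 + -(cst ((μ⁻¹ : (ZMod p)ˣ) : ZMod p) * π v' 0) = 0
          rw [(hz'π v' hv'N').1, hv'0]; ring
        · show π (z' * v' * z'⁻¹) 1 + -(cst ((μ⁻¹ : (ZMod p)ˣ) : ZMod p) * π v' 1) = 0
          rw [(hz'π v' hv'N').2, hci]; ring
  · exfalso
    obtain ⟨s, hsz, hso, hsIv⟩ := minus_one (p := p) hp2 (P₁ := N₀) cst π hmul hzero (hLN' hz'L) μ hμ hz'π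
    have hsL : s ∈ L := (Subgroup.zpowers_le.2 hz'L) hsz
    have hsw : s ∈ Subgroup.normalizer (w : Set G) := (Subgroup.zpowers_le.2 hz'w) hsz
    have hsCe : Ce N' N s := hCe' s hsL hso
    -- `s` centralizes `w` modulo `N₀`
    have hsw0 : ∀ x ∈ w, s * x * s⁻¹ * x⁻¹ ∈ N₀ := by
      intro x hx
      exact hcase (Subgroup.mem_inf.2 ⟨mul_mem ((Subgroup.mem_normalizer_iff.1 hsw x).1 hx) (inv_mem hx), hsCe x (hwN hx)⟩)
    -- a Sylow subgroup of `L` containing `a`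
    have hapg : IsPGroup p (Subgroup.zpowers a) := by
      obtain ⟨k, hk⟩ := hap
      rintro ⟨_, i, rfl⟩
      refine ⟨k, Subtype.ext ?_⟩
      show (a ^ i) ^ p ^ k = 1
      rw [← zpow_natCast, ← zpow_mul, mul_comm, zpow_mul, zpow_natCast, hk, one_zpow]
    have hRw : ∀ R : Subgroup G, IsPGroup p R → a ∈ R → R ≤ L → R ≤ Subgroup.normalizer (w : Set G) := by
      intro R h1 h2 h3 r hr
      exact hA1 R h1 h2 h3 ⟨h3 hr, Subgroup.le_normalizer hr⟩
    -- centralizers of sections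
    have hCsub : ∀ A B : Subgroup G, A ≤ B → L ≤ Subgroup.normalizer (A : Set G) → L ≤ Subgroup.normalizer (B : Set G) →
        ∃ C : Subgroup G, C ≤ L ∧ L ≤ Subgroup.normalizer (C : Set G) ∧ ∀ l, l ∈ C ↔ l ∈ L ∧ Ce A B l := by
      intro A B hAB hA hB
      let C : Subgroup G :=
        { carrier := {c | c ∈ L ∧ Ce A B c}
          one_mem' := ⟨one_mem _, Ce.one⟩
          mul_mem' := by
            rintro c d ⟨hc1, hc2⟩ ⟨hd1, hd2⟩
            exact ⟨mul_mem hc1 hd1, hc2.mul_Ce hd2 (hA hc1)⟩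
          inv_mem' := by
            rintro c ⟨hc1, hc2⟩
            refine ⟨inv_mem hc1, fun x hx => ?_⟩
            have h1 : c⁻¹ * x * c ∈ B := by
              have := hcL B hB c⁻¹ (inv_mem hc1) x hx
              rwa [inv_inv] at this
            have h2 := A.inv_mem (hc2 _ h1)
            have e : (c * (c⁻¹ * x * c) * c⁻¹ * (c⁻¹ * x * c)⁻¹)⁻¹ = c⁻¹ * x * c⁻¹⁻¹ * x⁻¹ := by group
            rwa [e] at h2 }
      refine ⟨C, fun c hc => hc.1, ?_, fun l => Iff.rfl⟩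
      intro y hy
      apply mem_norm_of_le
      rw [cj_le_iff]
      rintro c ⟨hc1, hc2⟩
      refine ⟨mul_mem (mul_mem hy hc1) (inv_mem hy), fun x hx => ?_⟩
      have h1 : y⁻¹ * x * y ∈ B := by
        have := hcL B hB y⁻¹ (inv_mem hy) x hx
        rwa [inv_inv] at this
      have h2 := hcL A hA y hy _ (hc2 _ h1)
      have e : y * (c * (y⁻¹ * x * y) * c⁻¹ * (y⁻¹ * x * y)⁻¹) * y⁻¹ =
        y * c * y⁻¹ * x * (y * c * y⁻¹)⁻¹ * x⁻¹ := by group
      rwa [e] at h2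
    obtain ⟨C₁, hC₁L, hLC₁, hC₁⟩ := hCsub N' N hN'N hLN' hLN
    obtain ⟨C₂, hC₂L, hLC₂, hC₂⟩ := hCsub N₀ N' hN₀'.le hLN₀ hLN'
    obtain ⟨C₃, hC₃L, hLC₃, hC₃⟩ := hCsub N₀ N hN₀N hLN₀ hLN
    -- `N ≤ w ⊔ N'`
    have hNw : N ≤ w ⊔ N' := by
      apply hNmin _ le_sup_left
      obtain ⟨R, haR, hR⟩ := IsSyl.exists_of_le (p := p) (H := L) (R := Subgroup.zpowers a)
        ((Subgroup.zpowers_le).2 haL) hapg
      intro l hl
      obtain ⟨c, hc, t, ht, rfl⟩ := hR.sup_eq hC₁L hLC₁ (fun y hy hyo => (hC₁ y).2 ⟨hy, hCe' y hy hyo⟩) l hl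
      refine mul_mem ?_ ?_
      · apply mem_norm_of_le
        rw [cj_sup]
        refine sup_le ?_ ?_
        · rw [cj_le_iff]
          intro x hx
          have h1 := ((hC₁ c).1 hc).2 x (hwN hx)
          have e : c * x * c⁻¹ = (c * x * c⁻¹ * x⁻¹) * x := by group
          rw [e]
          exact mul_mem (Subgroup.mem_sup_right h1) (Subgroup.mem_sup_left hx)
        · rw [mem_norm_iff.1 (hLN' (hC₁L hc))]
          exact le_sup_right
      · rw [mem_norm_iff, cj_sup, mem_norm_iff.1 (hRw R hR.2.1 (haR (Subgroup.mem_zpowers a)) hR.1 ht),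
          mem_norm_iff.1 (hLN' (hR.1 ht))]
    -- elements trivial on both layers are trivial modulo `N₀`
    have hK₁ : ∀ k ∈ L, Ce N₀ N' k → Ce N' N k → Ce N₀ N k := by
      intro k hk hk1 hk2
      obtain ⟨K, hK⟩ : ∃ K : Subgroup G, K = C₁ ⊓ C₂ := ⟨_, rfl⟩
      have hKL : K ≤ L := by rw [hK]; exact inf_le_left.trans hC₁L
      have hLK : L ≤ Subgroup.normalizer (K : Set G) := by
        intro l hl
        rw [hK]; exact norm_inf (hLC₁ hl) (hLC₂ hl)
      have hkK : k ∈ K := by rw [hK]; exact ⟨(hC₁ k).2 ⟨hk, hk2⟩, (hC₂ k).2 ⟨hk, hk1⟩⟩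
      obtain ⟨E, hE⟩ : ∃ E : Subgroup G, E = K ⊔ Subgroup.zpowers a := ⟨_, rfl⟩
      have hEL : E ≤ L := by rw [hE]; exact sup_le hKL (Subgroup.zpowers_le.2 haL)
      have hC₃E : C₃ ≤ E := by
        intro c hc
        rw [hE]
        apply Subgroup.mem_sup_left
        have h1 := (hC₃ c).1 hc
        rw [hK]
        refine ⟨(hC₁ c).2 ⟨h1.1, fun x hx => hN₀'.le (h1.2 x hx)⟩, (hC₂ c).2 ⟨h1.1, fun x hx => h1.2 x (hN'N hx)⟩⟩
      obtain ⟨T₃, haT₃, hT₃⟩ := IsSyl.exists_of_le (p := p) (H := E) (R := Subgroup.zpowers a)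
        (by rw [hE]; exact le_sup_right) hapg
      have hKcop : ∀ y ∈ E, (orderOf y).Coprime p → y ∈ C₃ := by
        intro y hy hyo
        have hyK : y ∈ K := by
          -- `E / K` is a `p`-group
          rw [hE] at hy
          obtain ⟨c, hc, t, ht, hyct⟩ := (mem_sup_left_norm ((Subgroup.zpowers_le.2 haL).trans hLK)).1 hy
          obtain ⟨m, hm⟩ := hapg ⟨t, ht⟩
          have hm' : t ^ p ^ m = 1 := congrArg Subtype.val hm
          -- powers
          have key : ∀ n : ℕ, ∃ c' ∈ K, y ^ n = c' * t ^ n := by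
            intro n
            induction n with
            | zero => exact ⟨1, one_mem _, by simp⟩
            | succ n ih =>
              obtain ⟨c', hc', e⟩ := ih
              have htL : t ∈ L := (Subgroup.zpowers_le.2 haL) ht
              have h1 := hcL K hLK _ (pow_mem htL n) c hc
              refine ⟨c' * (t ^ n * c * (t ^ n)⁻¹), mul_mem hc' h1, ?_⟩
              rw [pow_succ, e, hyct, pow_succ]
              group
          obtain ⟨c', hc', e⟩ := key (p ^ m)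
          rw [hm', mul_one] at e
          have h2 : y ^ p ^ m ∈ K := by rw [e]; exact hc'
          -- `y` is a power of `y ^ p ^ m`
          have h3 : (orderOf y).Coprime (p ^ m) := Nat.Coprime.pow_right _ hyo
          obtain ⟨r, hr⟩ := exists_pow_eq_self_of_coprime h3.symm
          rw [← hr]
          exact pow_mem h2 r
        rw [hK] at hyK
        have hyL : y ∈ L := hEL hy
        exact (hC₃ y).2 ⟨hyL, ce_of_coprime hNp hNc hN₀'.le hN'N (hLN' hyL) (hLN hyL) hyo ((hC₁ y).1 hyK.1).2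
          ((hC₂ y).1 hyK.2).2⟩
      obtain ⟨c, hc, t, ht, hkct⟩ := hT₃.sup_eq hC₃E (hEL.trans hLC₃) hKcop k (by
        rw [hE]; exact Subgroup.mem_sup_left hkK)
      have htL : t ∈ L := hEL (hT₃.1 ht)
      have htw : t ∈ Subgroup.normalizer (w : Set G) :=
        hRw T₃ hT₃.2.1 (haT₃ (Subgroup.mem_zpowers a)) (hT₃.1.trans hEL) ht
      have htK : t ∈ K := by
        have h1 := (hC₃ c).1 hc
        have h2 : c ∈ K := by
          rw [hK]
          exact ⟨(hC₁ c).2 ⟨h1.1, fun x hx => hN₀'.le (h1.2 x hx)⟩, (hC₂ c).2 ⟨h1.1, fun x hx => h1.2 x (hN'N hx)⟩⟩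
        have h3 : t = c⁻¹ * k := by rw [hkct]; group
        rw [h3]
        exact mul_mem (inv_mem h2) hkK
      rw [hK] at htK
      have ht1 := ((hC₁ t).1 htK.1).2
      have ht2 := ((hC₂ t).1 htK.2).2
      -- `t` is trivial on `N / N₀`
      let V : Subgroup G :=
        { carrier := {x | x ∈ N ∧ t * x * t⁻¹ * x⁻¹ ∈ N₀}
          one_mem' := ⟨one_mem _, by simp [N₀.one_mem]⟩
          mul_mem' := by
            rintro x y ⟨hx, hx'⟩ ⟨hy, hy'⟩
            refine ⟨mul_mem hx hy, ?_⟩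
            have h1 := (Subgroup.mem_normalizer_iff.1 (hnrm N₀ N hN₀N le_rfl (mul_mem
              (mul_mem hx hy) (inv_mem hx))) _).1 hy'
            have h2 := (Subgroup.mem_normalizer_iff.1 (hnrm N₀ N hN₀N le_rfl hx) _).1 hy'
            have e : t * (x * y) * t⁻¹ * (x * y)⁻¹ = (t * x * t⁻¹ * x⁻¹) * (x * (t * y * t⁻¹ * y⁻¹) * x⁻¹) := by group
            rw [e]
            exact mul_mem hx' h2
          inv_mem' := by
            rintro x ⟨hx, hx'⟩
            refine ⟨inv_mem hx, ?_⟩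
            have h2 := (Subgroup.mem_normalizer_iff.1 (hnrm N₀ N hN₀N le_rfl (inv_mem hx)) _).1 (inv_mem hx')
            have e : x⁻¹ * (t * x * t⁻¹ * x⁻¹)⁻¹ * x⁻¹⁻¹ = t * x⁻¹ * t⁻¹ * x⁻¹⁻¹ := by
              have h3 := hNc _ (N.inv_mem (hcL N hLN t htL x hx)) _ (N.inv_mem hx)
              calc x⁻¹ * (t * x * t⁻¹ * x⁻¹)⁻¹ * x⁻¹⁻¹ = x⁻¹ * x * (t * x * t⁻¹)⁻¹ * x := by group
                _ = t * x⁻¹ * t⁻¹ * x⁻¹⁻¹ := by group
            rwa [e] at h2 }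
      have hNV : N ≤ V := by
        refine hNw.trans (sup_le ?_ ?_)
        · intro x hx
          exact ⟨hwN hx, hcase (Subgroup.mem_inf.2 ⟨mul_mem ((Subgroup.mem_normalizer_iff.1 htw x).1 hx) (inv_mem hx), ht1 x (hwN hx)⟩)⟩
        · intro x hx
          exact ⟨hN'N hx, ht2 x hx⟩
      have ht3 : Ce N₀ N t := fun x hx => (hNV hx).2
      rw [hkct]
      exact ((hC₃ c).1 hc).2.mul_Ce ht3 (hLN₀ (hC₃L hc))
    -- `s` is trivial on `N / N₀`
    let V : Subgroup G :=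
      { carrier := {x | x ∈ N ∧ s * x * s⁻¹ * x⁻¹ ∈ N₀}
        one_mem' := ⟨one_mem _, by simp [N₀.one_mem]⟩
        mul_mem' := by
          rintro x y ⟨hx, hx'⟩ ⟨hy, hy'⟩
          refine ⟨mul_mem hx hy, ?_⟩
          have h2 := (Subgroup.mem_normalizer_iff.1 (hnrm N₀ N hN₀N le_rfl hx) _).1 hy'
          have e : s * (x * y) * s⁻¹ * (x * y)⁻¹ = (s * x * s⁻¹ * x⁻¹) * (x * (s * y * s⁻¹ * y⁻¹) * x⁻¹) := by group
          rw [e]
          exact mul_mem hx' h2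
        inv_mem' := by
          rintro x ⟨hx, hx'⟩
          refine ⟨inv_mem hx, ?_⟩
          have h2 := (Subgroup.mem_normalizer_iff.1 (hnrm N₀ N hN₀N le_rfl (inv_mem hx)) _).1 (inv_mem hx')
          have e : x⁻¹ * (s * x * s⁻¹ * x⁻¹)⁻¹ * x⁻¹⁻¹ = s * x⁻¹ * s⁻¹ * x⁻¹⁻¹ := by group
          rwa [e] at h2 }
    have hLV : L ≤ Subgroup.normalizer (V : Set G) := by
      intro l hl
      apply mem_norm_of_le
      rw [cj_le_iff]
      rintro x ⟨hx, hx'⟩
      refine ⟨hcL N hLN l hl x hx, ?_⟩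
      obtain ⟨k, hk⟩ : ∃ k : G, k = s * l * s⁻¹ * l⁻¹ := ⟨_, rfl⟩
      have hkL : k ∈ L := by rw [hk]; exact mul_mem (mul_mem (mul_mem hsL hl) (inv_mem hsL)) (inv_mem hl)
      have hkce : Ce N₀ N k := by
        apply hK₁ k hkL
        · rw [hk]
          exact comm_triv (hLN₀ hsL) (hLN' hsL) (hLN₀ hl) (hLN' hl) (hnrm N₀ N' hN₀N hN'N) hcomm (Or.inr hsIv)
        · rw [hk]
          exact comm_triv (hLN' hsL) (hLN hsL) (hLN' hl) (hLN hl) (hnrm N' N hN'N le_rfl) (by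
            intro x hx y hy
            rw [hNc x hx y hy]
            have : y * x * x⁻¹ * y⁻¹ = 1 := by group
            rw [this]; exact one_mem _) (Or.inl hsCe)
      have h1 := hcL N₀ hLN₀ l hl _ hx'
      have h2 := hcL N₀ hLN₀ k hkL _ h1
      have h3 := hkce _ (hcL N hLN l hl x hx)
      have e : s * (l * x * l⁻¹) * s⁻¹ * (l * x * l⁻¹)⁻¹ =
          (k * (l * (s * x * s⁻¹ * x⁻¹) * l⁻¹) * k⁻¹) * (k * (l * x * l⁻¹) * k⁻¹ * (l * x * l⁻¹)⁻¹) := by
        rw [hk]; group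
      rw [e]
      exact mul_mem h2 h3
    have hNV : N ≤ V := hNmin V (fun x hx => ⟨hwN hx, hsw0 x hx⟩) hLV
    obtain ⟨x, hx, hx'⟩ := SetLike.exists_of_lt hN₀'
    have h1 := (hNV (hN'N hx)).2
    have h2 := hsIv x hx
    -- `x * x ∈ N₀`
    have h3 : x * x ∈ N₀ := by
      have := mul_mem (inv_mem h1) h2
      have e : (s * x * s⁻¹ * x⁻¹)⁻¹ * (s * x * s⁻¹ * x) = x * x := by group
      rwa [e] at this
    apply hx'
    have h4 : Odd (p : ℕ) := hp.out.odd_of_ne_two hp2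
    obtain ⟨j, hj⟩ := h4
    have h5 := hpow x hx
    rw [hj, pow_succ, pow_mul, pow_two] at h5
    have h6 := mul_mem (inv_mem (pow_mem h3 j)) h5
    rwa [inv_mul_cancel_left] at h6

end

end Cfsg.Agent.ZJFail
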