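import Cfsg.Agent.S5060
import Cfsg.Agent.QdInv.QuadStruct
/-!
The torus of `SL₂(p)` in the group generated by two opposite transvections (`p` odd).
-/
set_option autoImplicit false
set_option linter.all false

namespace Cfsg.Agent.ZJFail

open Cfsg Cfsg.Agent.H11 Matrix

/-- rescaling automorphism -/
def resc {F : Type*} [Field F] (γ : F) (hγ : γ ≠ 0) :
    SpecialLinearGroup (Fin 2) F →* SpecialLinearGroup (Fin 2) F where
  toFun M := ⟨!![M.1 0 0, γ * M.1 0 1; γ⁻¹ * M.1 1 0, M.1 1 1], by
    have h : M.1 0 0 * M.1 1 1 - M.1 0 1 * M.1 1 0 = 1 := by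
      have h := M.2
      rwa [det_fin_two] at h
    rw [det_fin_two_of]
    have e : γ * M.1 0 1 * (γ⁻¹ * M.1 1 0) = M.1 0 1 * M.1 1 0 := by
      field_simp
    rw [e]
    exact h⟩
  map_one' := by
    apply Subtype.ext
    ext i j
    fin_cases i <;> fin_cases j <;> simp
  map_mul' M N := by
    have hMN : ∀ i j, (M * N).1 i j = M.1 i 0 * N.1 0 j + M.1 i 1 * N.1 1 j := by
      intro i j
      show (M.1 * N.1) i j = _
      rw [Matrix.mul_apply, Fin.sum_univ_two]
    apply Subtype.ext
    show (!![(M * N).1 0 0, γ * (M * N).1 0 1; γ⁻¹ * (M * N).1 1 0, (M * N).1 1 1] : Matrix (Fin 2) (Fin 2) F) =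
      (!![M.1 0 0, γ * M.1 0 1; γ⁻¹ * M.1 1 0, M.1 1 1] : Matrix (Fin 2) (Fin 2) F) *
      (!![N.1 0 0, γ * N.1 0 1; γ⁻¹ * N.1 1 0, N.1 1 1] : Matrix (Fin 2) (Fin 2) F)
    rw [hMN, hMN, hMN, hMN]
    ext i j
    fin_cases i <;> fin_cases j <;>
      simp [Matrix.mul_apply, Fin.sum_univ_two] <;> field_simp

theorem resc_val {F : Type*} [Field F] (γ : F) (hγ : γ ≠ 0) (M : SpecialLinearGroup (Fin 2) F) :
    (resc γ hγ M).1 = !![M.1 0 0, γ * M.1 0 1; γ⁻¹ * M.1 1 0, M.1 1 1] := rfl

theorem zmod3 (m : ZMod 3) (h : m ≠ 0) : m = 1 ∨ m = -1 := by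
  revert m
  decide

theorem torus_mem {p : ℕ} [hp : Fact p.Prime] {F : Type*} [Field F] [Finite F] [hF : CharP F p] (hp2 : p ≠ 2)
    (γ : F) (hγ : γ ≠ 0) (μ : (ZMod p)ˣ) (c : F) (hc : c = ZMod.castHom (dvd_refl p) F (μ : ZMod p)) :
    ∃ M ∈ Subgroup.closure {slU γ, slL (1 : F)}, M.1 = !![c, 0; 0, c⁻¹] := by
  classical
  let iA : Algebra (ZMod p) F := ZMod.algebra F p
  have hcA : ∀ x : ZMod p, algebraMap (ZMod p) F x = ZMod.castHom (dvd_refl p) F x := fun x => rfl
  have hc0 : c ≠ 0 := by
    rw [hc]
    intro h
    have := (ZMod.castHom (dvd_refl p) F).injective (h.trans (map_zero _).symm)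
    exact μ.ne_zero this
  by_cases hp3 : p = 3
  · subst hp3
    -- `μ = 1` or `μ = -1`
    have hμ : (μ : ZMod 3) = 1 ∨ (μ : ZMod 3) = -1 := zmod3 _ μ.ne_zero
    rcases hμ with h | h
    · refine ⟨1, one_mem _, ?_⟩
      rw [h, map_one] at hc
      rw [hc]
      ext i j
      fin_cases i <;> fin_cases j <;> simp
    · obtain ⟨M, hM, hMv⟩ := QdInv.neg_one_mem (p := 3) hp2 γ hγ
      refine ⟨M, hM, ?_⟩
      rw [h, map_neg, map_one] at hc
      rw [hc]
      have h0 := hMv ![1, 0]
      have h1 := hMv ![0, 1]
      ext i j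
      have h0i := congrFun h0 i
      have h1i := congrFun h1 i
      simp [Matrix.mulVec, dotProduct, Fin.sum_univ_two] at h0i h1i
      fin_cases i <;> fin_cases j <;> simp_all
  · have hring : ringChar (ZMod p) ≠ 2 := by
      rw [ZMod.ringChar_zmod_n]; exact hp2
    have hcard : Nat.card (ZMod p) ≠ 3 := by
      rw [Nat.card_zmod]; exact hp3
    have hmem := Cfsg.Agent.S5060.result (k := ZMod p) (K := F) hring hcard γ
      (Algebra.IsAlgebraic.isAlgebraic γ) hγ
    let d : SpecialLinearGroup (Fin 2) F := ⟨!![c, 0; 0, c⁻¹], by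
      rw [det_fin_two]; simp [hc0]⟩
    have hd : d ∈ ({g : Matrix.SpecialLinearGroup (Fin 2) F | ∀ i j : Fin 2, (g : Matrix (Fin 2) (Fin 2) F) i j ∈
        IntermediateField.adjoin (ZMod p) ({γ} : Set F)} : Set (SpecialLinearGroup (Fin 2) F)) := by
      have hcm : c ∈ IntermediateField.adjoin (ZMod p) ({γ} : Set F) := by
        rw [hc, ← hcA]
        exact IntermediateField.algebraMap_mem _ _
      intro i j
      show (!![c, 0; 0, c⁻¹] : Matrix (Fin 2) (Fin 2) F) i j ∈ _
      fin_cases i <;> fin_cases j
      · exact hcm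
      · exact zero_mem _
      · exact zero_mem _
      · exact inv_mem hcm
    rw [← hmem] at hd
    -- transport by the rescaling
    have h1 : resc γ hγ d = d := by
      apply Subtype.ext
      rw [resc_val]
      show !![c, γ * 0; γ⁻¹ * 0, c⁻¹] = !![c, 0; 0, c⁻¹]
      rw [mul_zero, mul_zero]
    have h2 : ∀ x ∈ Subgroup.closure ({g : Matrix.SpecialLinearGroup (Fin 2) F | ∃ c : ZMod p, (g : Matrix (Fin 2) (Fin 2) F) = !![1, algebraMap (ZMod p) F c; 0, 1]} ∪
        {g : Matrix.SpecialLinearGroup (Fin 2) F | ∃ c : ZMod p, (g : Matrix (Fin 2) (Fin 2) F) = !![1, 0; algebraMap (ZMod p) F c * γ, 1]}),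
        resc γ hγ x ∈ Subgroup.closure {slU γ, slL (1 : F)} := by
      intro x hx
      induction hx using Subgroup.closure_induction with
      | mem x hx =>
        rcases hx with ⟨c, hc⟩ | ⟨c, hc⟩
        · have : resc γ hγ x = slU γ ^ c.val := by
            apply Subtype.ext
            rw [resc_val, hc]
            have h3 : ∀ n : ℕ, (slU γ ^ n).1 = !![1, (n : F) * γ; 0, 1] := by
              intro n
              induction n with
              | zero => ext i j; fin_cases i <;> fin_cases j <;> simp
              | succ n ih =>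
                rw [pow_succ]
                show (slU γ ^ n).1 * (slU γ).1 = _
                rw [ih, slU_val]
                ext i j
                fin_cases i <;> fin_cases j <;> simp [Matrix.mul_apply, Fin.sum_univ_two]
                ring
            rw [h3]
            have h4 : ((c.val : ℕ) : F) = algebraMap (ZMod p) F c := by
              rw [hcA]
              nth_rewrite 2 [← ZMod.natCast_zmod_val c]
              rw [map_natCast]
            rw [h4]
            ext i j
            fin_cases i <;> fin_cases j <;> simp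
            exact mul_comm _ _
          rw [this]
          exact pow_mem (Subgroup.subset_closure (by simp)) _
        · have : resc γ hγ x = slL (1 : F) ^ c.val := by
            apply Subtype.ext
            rw [resc_val, hc]
            have h3 : ∀ n : ℕ, (slL (1 : F) ^ n).1 = !![1, 0; (n : F), 1] := by
              intro n
              induction n with
              | zero => ext i j; fin_cases i <;> fin_cases j <;> simp
              | succ n ih =>
                rw [pow_succ]
                show (slL (1 : F) ^ n).1 * (slL (1 : F)).1 = _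
                rw [ih, slL_val]
                ext i j
                fin_cases i <;> fin_cases j <;> simp [Matrix.mul_apply, Fin.sum_univ_two]
            rw [h3]
            have h4 : ((c.val : ℕ) : F) = algebraMap (ZMod p) F c := by
              rw [hcA]
              nth_rewrite 2 [← ZMod.natCast_zmod_val c]
              rw [map_natCast]
            rw [h4]
            ext i j
            fin_cases i <;> fin_cases j <;> simp
            field_simp
          rw [this]
          exact pow_mem (Subgroup.subset_closure (by simp)) _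
      | one => rw [map_one]; exact one_mem _
      | mul x y _ _ hx hy => rw [map_mul]; exact mul_mem hx hy
      | inv x _ hx => rw [map_inv]; exact inv_mem hx
    exact ⟨d, by rw [← h1]; exact h2 d hd, rfl⟩

end Cfsg.Agent.ZJFail
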