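import Cfsg.Agent.ZJFail.FInv
import Cfsg.Agent.ZJFail.Torus
import Cfsg.Agent.QdInv.QuadLoc
/-!
The local lemma for `F(p)`.
-/
set_option autoImplicit false
set_option linter.all false

namespace Cfsg.Agent.ZJFail

open Cfsg Cfsg.Agent.H33 Cfsg.Agent.QdInv

universe u

section Sec

variable {G : Type*} [Group G] {P₁ P₂ : Subgroup G}

theorem comm_triv {σ t : G} (hσ1 : σ ∈ Subgroup.normalizer (P₁ : Set G)) (hσ2 : σ ∈ Subgroup.normalizer (P₂ : Set G))
    (ht1 : t ∈ Subgroup.normalizer (P₁ : Set G)) (ht2 : t ∈ Subgroup.normalizer (P₂ : Set G))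
    (hn : P₂ ≤ Subgroup.normalizer (P₁ : Set G))
    (hc : ∀ x ∈ P₂, ∀ y ∈ P₂, x * y * x⁻¹ * y⁻¹ ∈ P₁)
    (h : Ce P₁ P₂ σ ∨ Iv P₁ P₂ σ) : Ce P₁ P₂ (σ * t * σ⁻¹ * t⁻¹) := by
  intro y hy
  have hw : t⁻¹ * y * t ∈ P₂ := by
    have := (Subgroup.mem_normalizer_iff.1 (inv_mem ht2) y).1 hy
    simpa using this
  have hw' : σ⁻¹ * (t⁻¹ * y * t) * σ ∈ P₂ := by
    have := (Subgroup.mem_normalizer_iff.1 (inv_mem hσ2) _).1 hw
    simpa using this
  rcases h with h | h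
  · -- `σ` centralizes
    have h1 := h _ hw'
    have e1 : σ * (σ⁻¹ * (t⁻¹ * y * t) * σ) * σ⁻¹ = t⁻¹ * y * t := by group
    rw [e1] at h1
    -- `w * w'⁻¹ ∈ P₁`
    have h2 := (Subgroup.mem_normalizer_iff.1 ht1 _).1 h1
    have h3 := (Subgroup.mem_normalizer_iff.1 hσ1 _).1 (P₁.inv_mem h2)
    have h4 := h y hy
    have h5 := P₁.mul_mem h3 h4
    have e : σ * (t * (t⁻¹ * y * t * (σ⁻¹ * (t⁻¹ * y * t) * σ)⁻¹) * t⁻¹)⁻¹ * σ⁻¹ * (σ * y * σ⁻¹ * y⁻¹) =
      σ * t * σ⁻¹ * t⁻¹ * y * (σ * t * σ⁻¹ * t⁻¹)⁻¹ * y⁻¹ := by group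
    rwa [e] at h5
  · -- `σ` inverts
    have h1 := h _ hw'
    have e1 : σ * (σ⁻¹ * (t⁻¹ * y * t) * σ) * σ⁻¹ = t⁻¹ * y * t := by group
    rw [e1] at h1
    -- `w * w' ∈ P₁`, so `w' ∈ w⁻¹ P₁`
    have h2 := (Subgroup.mem_normalizer_iff.1 ht1 _).1 h1
    -- `y * (t w' t⁻¹) ∈ P₁`
    have hy' : t * (σ⁻¹ * (t⁻¹ * y * t) * σ) * t⁻¹ ∈ P₂ := (Subgroup.mem_normalizer_iff.1 ht2 _).1 hw'
    obtain ⟨v, hv⟩ : ∃ v : G, v = t * (σ⁻¹ * (t⁻¹ * y * t) * σ) * t⁻¹ := ⟨_, rfl⟩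
    have h3 : y * v ∈ P₁ := by
      have e : t * (t⁻¹ * y * t * (σ⁻¹ * (t⁻¹ * y * t) * σ)) * t⁻¹ = y * v := by rw [hv]; group
      rwa [e] at h2
    rw [← hv] at hy'
    have h4 := h v hy'
    -- `σ v σ⁻¹ v ∈ P₁`
    have e : σ * t * σ⁻¹ * t⁻¹ * y * (σ * t * σ⁻¹ * t⁻¹)⁻¹ * y⁻¹ = (σ * v * σ⁻¹ * v) * (y * v)⁻¹ := by
      rw [hv]; group
    rw [e]
    exact P₁.mul_mem h4 (P₁.inv_mem h3)

theorem CeIv_pow {s : G} (hs1 : s ∈ Subgroup.normalizer (P₁ : Set G)) (h : Iv P₁ P₂ s) (j : ℕ) :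
    Ce P₁ P₂ (s ^ j) ∨ Iv P₁ P₂ (s ^ j) := by
  induction j with
  | zero => left; rw [pow_zero]; exact Ce.one
  | succ j ih =>
    rw [pow_succ']
    rcases ih with ih | ih
    · right; exact h.mul_Ce ih hs1
    · left; exact h.mul_Iv ih hs1

end Sec

theorem exists_gen (p : ℕ) [hp : Fact p.Prime] : ∃ μ : (ZMod p)ˣ, orderOf μ = p - 1 := by
  obtain ⟨μ, hμ⟩ := IsCyclic.exists_generator (α := (ZMod p)ˣ)
  refine ⟨μ, ?_⟩
  rw [orderOf_eq_card_of_forall_mem_zpowers hμ, Nat.card_eq_fintype_card, ZMod.card_units]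

theorem gen_half {p : ℕ} [hp : Fact p.Prime] (hp2 : p ≠ 2) {μ : (ZMod p)ˣ} (hμ : orderOf μ = p - 1) :
    (μ : ZMod p) ^ ((p - 1) / 2) = -1 := by
  have hodd : p % 2 = 1 := hp.out.eq_two_or_odd.resolve_left hp2
  have h2 := hp.out.two_le
  have h1 : ((μ : ZMod p) ^ ((p - 1) / 2)) ^ 2 = 1 := by
    rw [← pow_mul]
    have : (p - 1) / 2 * 2 = p - 1 := by omega
    rw [this, ← hμ, ← Units.val_pow_eq_pow_val, pow_orderOf_eq_one, Units.val_one]
  rw [pow_two] at h1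
  rcases mul_self_eq_one_iff.1 h1 with h | h
  · exfalso
    have h3 : μ ^ ((p - 1) / 2) = 1 := by
      apply Units.ext
      rw [Units.val_pow_eq_pow_val, h, Units.val_one]
    have h4 := orderOf_dvd_of_pow_eq_one h3
    rw [hμ] at h4
    have h5 := Nat.le_of_dvd (by omega) h4
    omega
  · exact h

theorem f_loc {X : Type u} [Group X] [Finite X] {p : ℕ} [hp : Fact p.Prime] (hp2 : p ≠ 2)
    {P : Subgroup X} (hP : IsPGroup p P) {a b : X}
    (hL : Subgroup.closure {a, b} ≤ Subgroup.normalizer (P : Set X)) (hqa : H11.Quad a P)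
    (hqb : H11.Quad b P) (hap : ∃ k, a ^ p ^ k = 1)
    (hg : ∃ g ∈ Subgroup.closure {a, b}, (orderOf g).Coprime p ∧ g ∉ Subgroup.centralizer (P : Set X)) :
    ∃ T' : Subgroup X, IsPGroup p T' ∧ a ∈ T' ∧ T' ≤ Subgroup.closure {a, b} ∧
      FX p ↥(P ⊔ (Subgroup.closure {a, b} ⊓ Subgroup.normalizer (T' : Set X))) := by
  obtain ⟨g, hgL, hgo, hgc⟩ := hg
  obtain ⟨P₁, P₂, hlt, hP₂, hL1, hL2, hn, hpow, hcomm, hgx, hirr⟩ := exists_factor hP hL hgL hgo hgc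
  obtain ⟨F, j1, j2, j3, γ, π, hγ, hmul, hsurj, hzero, hA, hB, hR⟩ := exists_struct hp2 hlt hL1 hL2 hn
    hpow hcomm hgL hgx hirr (hqa.mono hP₂) (hqb.mono hP₂)
  obtain ⟨μ, hμ⟩ := exists_gen p
  obtain ⟨cst, hcst⟩ : ∃ cst : ZMod p →+* F, cst = ZMod.castHom (dvd_refl p) F := ⟨_, rfl⟩
  have hcinj : Function.Injective cst := by rw [hcst]; exact RingHom.injective _
  obtain ⟨c, hc⟩ : ∃ c : F, c = cst (μ : ZMod p) := ⟨_, rfl⟩
  have hc0 : c ≠ 0 := by
    rw [hc]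
    intro h
    exact μ.ne_zero (hcinj (h.trans (map_zero _).symm))
  obtain ⟨M, hM, hMv⟩ := torus_mem (p := p) hp2 γ hγ μ c (by rw [hc, hcst])
  obtain ⟨z, hz, hzπ⟩ := hR M hM
  have hcL : ∀ d ∈ Subgroup.closure ({a, b} : Set X), ∀ x ∈ P₂, d * x * d⁻¹ ∈ P₂ := fun d hd x hx =>
    (Subgroup.mem_normalizer_iff.1 (hL2 hd) x).1 hx
  have hcL' : ∀ d ∈ Subgroup.closure ({a, b} : Set X), ∀ x ∈ P₂, d⁻¹ * x * d ∈ P₂ := by
    intro d hd x hx
    have := hcL d⁻¹ (inv_mem hd) x hx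
    rwa [inv_inv] at this
  have haL : a ∈ Subgroup.closure ({a, b} : Set X) := Subgroup.subset_closure (by simp)
  have hπ1 : π 1 = 0 := (hzero 1 (one_mem _)).2 (one_mem _)
  have hinv : ∀ x ∈ P₂, π x⁻¹ = - π x := by
    intro x hx
    have h3 := hmul x hx x⁻¹ (inv_mem hx)
    rw [mul_inv_cancel, hπ1] at h3
    exact (eq_neg_of_add_eq_zero_right h3.symm)
  have heq : ∀ x ∈ P₂, ∀ y ∈ P₂, x * y⁻¹ ∈ P₁ ↔ π x = π y := by
    intro x hx y hy
    rw [← hzero _ (mul_mem hx (inv_mem hy)), hmul x hx _ (inv_mem hy), hinv y hy]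
    exact add_neg_eq_zero
  -- coordinates
  have hA0 : ∀ x ∈ P₂, π (a * x * a⁻¹) 0 = π x 0 + γ * π x 1 ∧ π (a * x * a⁻¹) 1 = π x 1 := by
    intro x hx
    rw [hA x hx, H11.slU_val]
    constructor <;> simp [Matrix.mulVec, dotProduct, Fin.sum_univ_two]
  have hz0 : ∀ x ∈ P₂, π (z * x * z⁻¹) 0 = c * π x 0 ∧ π (z * x * z⁻¹) 1 = c⁻¹ * π x 1 := by
    intro x hx
    rw [hzπ x hx, hMv]
    constructor <;> simp [Matrix.mulVec, dotProduct, Fin.sum_univ_two]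
  have hAk : ∀ k : ℕ, ∀ x ∈ P₂, π (a ^ k * x * (a ^ k)⁻¹) 0 = π x 0 + (k : F) * γ * π x 1 ∧
      π (a ^ k * x * (a ^ k)⁻¹) 1 = π x 1 := by
    intro k
    induction k with
    | zero => intro x hx; simp
    | succ k ih =>
      intro x hx
      have e : a ^ (k + 1) * x * (a ^ (k + 1))⁻¹ = a * (a ^ k * x * (a ^ k)⁻¹) * a⁻¹ := by
        rw [pow_succ']; group
      have h1 := hA0 _ (hcL _ (pow_mem haL k) x hx)
      have h2 := ih x hx
      rw [e, h1.1, h1.2, h2.1, h2.2]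
      refine ⟨?_, rfl⟩
      push_cast
      ring
  have hext : ∀ v w : Fin 2 → F, v 0 = w 0 → v 1 = w 1 → v = w := by
    intro v w h0 h1
    ext i
    fin_cases i
    · exact h0
    · exact h1
  -- inverse action
  have hzi : ∀ x ∈ P₂, π (z⁻¹ * x * z) 0 = c⁻¹ * π x 0 ∧ π (z⁻¹ * x * z) 1 = c * π x 1 := by
    intro x hx
    have h1 := hz0 _ (hcL' z hz x hx)
    have e : z * (z⁻¹ * x * z) * z⁻¹ = x := by group
    rw [e] at h1
    rw [h1.1, h1.2]
    constructor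
    · rw [← mul_assoc, inv_mul_cancel₀ hc0, one_mul]
    · rw [← mul_assoc, mul_inv_cancel₀ hc0, one_mul]
  obtain ⟨T', hT', haT, hTL, z', hz'L, hz'T, hz'x⟩ := exists_norm_T (p := p) hz hL1 hL2 hap
    ((μ : ZMod p) * μ).val (by
    intro x hx
    rw [heq _ (hcL _ (mul_mem (mul_mem hz haL) (inv_mem hz)) x hx) _ (hcL _ (pow_mem haL _) x hx)]
    have e : z * a * z⁻¹ * x * (z * a * z⁻¹)⁻¹ = z * (a * (z⁻¹ * x * z) * a⁻¹) * z⁻¹ := by group
    have h1 := hz0 _ (hcL a haL _ (hcL' z hz x hx))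
    have h2 := hA0 _ (hcL' z hz x hx)
    have h3 := hzi x hx
    have h4 := hAk ((μ : ZMod p) * μ).val x hx
    have h5 : ((((μ : ZMod p) * μ).val : ℕ) : F) = c * c := by
      rw [hc, ← map_mul]
      nth_rewrite 2 [← ZMod.natCast_zmod_val ((μ : ZMod p) * (μ : ZMod p))]
      rw [map_natCast]
    apply hext
    · rw [e, h1.1, h2.1, h3.1, h3.2, h4.1, h5]
      field_simp
    · rw [e, h1.2, h2.2, h3.2, h4.2]
      field_simp)
  have hT'L1 : T' ≤ Subgroup.normalizer (P₁ : Set X) := hTL.trans hL1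
  have hT'L2 : T' ≤ Subgroup.normalizer (P₂ : Set X) := hTL.trans hL2
  have hz'0 : ∀ x ∈ P₂, π (z' * x * z'⁻¹) 0 = c * π x 0 ∧ π (z' * x * z'⁻¹) 1 = c⁻¹ * π x 1 := by
    intro x hx
    have h1 := (heq _ (hcL _ hz'L x hx) _ (hcL _ hz x hx)).1 (hz'x x hx)
    rw [h1]
    exact hz0 x hx
  have hz'i : ∀ x ∈ P₂, π (z'⁻¹ * x * z') 0 = c⁻¹ * π x 0 ∧ π (z'⁻¹ * x * z') 1 = c * π x 1 := by
    intro x hx
    have h1 := hz'0 _ (hcL' z' hz'L x hx)
    have e : z' * (z'⁻¹ * x * z') * z'⁻¹ = x := by group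
    rw [e] at h1
    rw [h1.1, h1.2]
    constructor
    · rw [← mul_assoc, inv_mul_cancel₀ hc0, one_mul]
    · rw [← mul_assoc, mul_inv_cancel₀ hc0, one_mul]
  have hz'k : ∀ k : ℕ, ∀ x ∈ P₂, π (z' ^ k * x * (z' ^ k)⁻¹) 0 = c ^ k * π x 0 ∧
      π (z' ^ k * x * (z' ^ k)⁻¹) 1 = (c⁻¹) ^ k * π x 1 := by
    intro k
    induction k with
    | zero => intro x hx; simp
    | succ k ih =>
      intro x hx
      have e : z' ^ (k + 1) * x * (z' ^ (k + 1))⁻¹ = z' * (z' ^ k * x * (z' ^ k)⁻¹) * z'⁻¹ := by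
        rw [pow_succ']; group
      have h1 := hz'0 _ (hcL _ (pow_mem hz'L k) x hx)
      have h2 := ih x hx
      rw [e, h1.1, h1.2, h2.1, h2.2]
      constructor
      · rw [pow_succ']; ring
      · rw [pow_succ']; ring
  -- the `p'`-element acting as `-1`
  obtain ⟨e, n, hn', hN⟩ := Nat.exists_eq_pow_mul_and_not_dvd (orderOf_pos z').ne' p hp.out.ne_one
  obtain ⟨s, hs⟩ : ∃ s : X, s = z' ^ ((p - 1) / 2 * p ^ e) := ⟨_, rfl⟩
  have hsL : s ∈ Subgroup.closure ({a, b} : Set X) := by rw [hs]; exact pow_mem hz'L _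
  have hsT : s ∈ Subgroup.normalizer (T' : Set X) := by rw [hs]; exact pow_mem hz'T _
  have hsz : Commute s z' := by rw [hs]; exact (Commute.refl z').pow_left _
  have hsn : s ^ n = 1 := by
    rw [hs, ← pow_mul]
    have : (p - 1) / 2 * p ^ e * n = orderOf z' * ((p - 1) / 2) := by rw [hN]; ring
    rw [this, pow_mul, pow_orderOf_eq_one, one_pow]
  have hcp : c ^ ((p - 1) / 2 * p ^ e) = -1 := by
    have h1 := gen_half hp2 hμ
    have h2 : c ^ ((p - 1) / 2) = -1 := by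
      rw [hc, ← map_pow, h1, map_neg, map_one]
    rw [pow_mul, h2]
    exact ((hp.out.odd_of_ne_two hp2).pow).neg_one_pow
  have hsπ : ∀ x ∈ P₂, π (s * x * s⁻¹) = - π x := by
    intro x hx
    have h1 := hz'k ((p - 1) / 2 * p ^ e) x hx
    rw [← hs] at h1
    apply hext
    · rw [h1.1, hcp, Pi.neg_apply, neg_one_mul]
    · rw [h1.2, inv_pow, hcp, Pi.neg_apply, inv_neg, inv_one, neg_one_mul]
  have hsIv : Iv P₁ P₂ s := by
    intro x hx
    rw [← hzero _ (mul_mem (hcL s hsL x hx) hx), hmul _ (hcL s hsL x hx) _ hx, hsπ x hx, neg_add_cancel]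
  have h2F : (2 : F) ≠ 0 := by
    intro h
    have h1 : ((2 : ℕ) : F) = 0 := by exact_mod_cast h
    have h2 := (CharP.cast_eq_zero_iff F p 2).1 h1
    exact hp2 ((Nat.prime_dvd_prime_iff_eq hp.out Nat.prime_two).1 h2)
  -- action of elements with parameter `i`
  let Act : X → ZMod p → Prop := fun t i => ∀ y ∈ P₂, π (t * y * t⁻¹) 0 = π y 0 + cst i * γ * π y 1 ∧
    π (t * y * t⁻¹) 1 = π y 1
  have hAct : ∀ t i, Act t i ↔ ∀ y ∈ P₂, π (t * y * t⁻¹) 0 = π y 0 + cst i * γ * π y 1 ∧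
    π (t * y * t⁻¹) 1 = π y 1 := fun t i => Iff.rfl
  have hAct_mul : ∀ t ∈ T', ∀ t' ∈ T', ∀ i i', Act t i → Act t' i' → Act (t * t') (i + i') := by
    intro t ht t' ht' i i' h h' y hy
    have e : t * t' * y * (t * t')⁻¹ = t * (t' * y * t'⁻¹) * t⁻¹ := by group
    have h1 := h _ (hcL t' (hTL ht') y hy)
    have h2 := h' y hy
    rw [e, h1.1, h1.2, h2.1, h2.2, map_add]
    refine ⟨by ring, rfl⟩
  have hAct_inv : ∀ t ∈ T', ∀ i, Act t i → Act t⁻¹ (-i) := by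
    intro t ht i h y hy
    have h1 := h _ (hcL' t (hTL ht) y hy)
    have e : t * (t⁻¹ * y * t) * t⁻¹ = y := by group
    rw [e] at h1
    rw [inv_inv, h1.1, h1.2, map_neg]
    refine ⟨by ring, rfl⟩
  -- the relation
  let Γ : Subgroup (X × SL3 p) :=
    { carrier := {g | ∃ x ∈ P₂, ∃ t ∈ T', ∃ i α β : ZMod p, g = (x * t, uni p i α β) ∧ s * t = t * s ∧
        Act t i ∧ π x 0 = cst α * γ ∧ π x 1 = cst β}
      one_mem' := by
        refine ⟨1, one_mem _, 1, one_mem _, 0, 0, 0, ?_, by simp, ?_, ?_, ?_⟩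
        · rw [uni_zero, mul_one]; rfl
        · intro y hy
          rw [map_zero]
          simp
        · rw [hπ1, map_zero]; simp
        · rw [hπ1, map_zero]; simp
      mul_mem' := by
        rintro _ _ ⟨x, hx, t, ht, i, α, β, rfl, hst, hti, hx0, hx1⟩ ⟨x', hx', t', ht', i', α', β', rfl, hst', hti', hx0', hx1'⟩
        have hy := hcL t (hTL ht) x' hx'
        refine ⟨x * (t * x' * t⁻¹), mul_mem hx hy, t * t', mul_mem ht ht', i + i', α + i * β' + α', β + β', ?_, ?_,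
          hAct_mul t ht t' ht' i i' hti hti', ?_, ?_⟩
        · show (x * t * (x' * t'), uni p i α β * uni p i' α' β') = _
          rw [uni_mul]
          congr 1
          group
        · calc s * (t * t') = (s * t) * t' := by group
            _ = t * (s * t') := by rw [hst]; group
            _ = t * t' * s := by rw [hst']; group
        · rw [hmul _ hx _ hy, Pi.add_apply, (hti x' hx').1, hx0, hx0', hx1', map_add, map_add, map_mul]
          ring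
        · rw [hmul _ hx _ hy, Pi.add_apply, (hti x' hx').2, hx1, hx1', map_add]
      inv_mem' := by
        rintro _ ⟨x, hx, t, ht, i, α, β, rfl, hst, hti, hx0, hx1⟩
        have hy := hcL' t (hTL ht) _ (inv_mem hx)
        have hti' := hAct_inv t ht i hti
        refine ⟨t⁻¹ * x⁻¹ * t, hy, t⁻¹, inv_mem ht, -i, i * β - α, -β, ?_, ?_, hti', ?_, ?_⟩
        · show ((x * t)⁻¹, (uni p i α β)⁻¹) = _
          rw [uni_inv]
          congr 1
          group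
        · rw [← inv_inj, mul_inv_rev, mul_inv_rev, inv_inv]
          calc t * s⁻¹ = s⁻¹ * (s * t) * s⁻¹ := by group
            _ = s⁻¹ * t := by rw [hst]; group
        · have h1 := (hti' x⁻¹ (inv_mem hx)).1
          rw [inv_inv] at h1
          rw [h1, hinv x hx, Pi.neg_apply, Pi.neg_apply, hx0, hx1, map_neg, map_sub, map_mul]
          ring
        · have h1 := (hti' x⁻¹ (inv_mem hx)).2
          rw [inv_inv] at h1
          rw [h1, hinv x hx, Pi.neg_apply, hx1, map_neg] }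
  have hPT : IsPGroup p ↥(T' ⊔ P₂) := hT'.to_sup_of_normal_right' (isPGroup_sub hP hP₂) hT'L2
  refine ⟨T', hT', haT, hTL, FIn.toSub ⟨Γ, z', μ, hμ, Subgroup.mem_sup_right ⟨hz'L, hz'T⟩, ?_, ?_, ?_, ?_, ?_, ?_⟩⟩
  · rintro _ ⟨x, hx, t, ht, i, α, β, rfl, -⟩
    exact mul_mem (Subgroup.mem_sup_left (hP₂ hx))
      (Subgroup.mem_sup_right ⟨hTL ht, Subgroup.le_normalizer ht⟩)
  · rintro _ ⟨x, hx, t, ht, i, α, β, rfl, -⟩
    obtain ⟨k, hk⟩ := hPT ⟨x * t, mul_mem (Subgroup.mem_sup_right hx) (Subgroup.mem_sup_left ht)⟩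
    exact ⟨k, congrArg Subtype.val hk⟩
  · rintro _ ⟨x, hx, t, ht, i, α, β, rfl, hst, hti, hx0, hx1⟩ h1
    have h1' : x * t = 1 := h1
    have ht' : t = x⁻¹ := eq_inv_of_mul_eq_one_right h1'
    have hsx : s * x * s⁻¹ = x := by
      have h2 : s * x⁻¹ = x⁻¹ * s := by rw [← ht']; exact hst
      calc s * x * s⁻¹ = (s * x⁻¹ * s⁻¹)⁻¹ := by group
        _ = x := by rw [h2]; group
    have h2 := hsπ x hx
    rw [hsx] at h2
    have h3 : π x = 0 := by
      have h4 : (2 : F) • π x = 0 := by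
        rw [two_smul]
        nth_rewrite 1 [h2]
        exact neg_add_cancel _
      exact (smul_eq_zero.1 h4).resolve_left h2F
    rw [h3, Pi.zero_apply] at hx0 hx1
    have hα : α = 0 := by
      apply hcinj
      rw [map_zero]
      rcases mul_eq_zero.1 hx0.symm with h | h
      · exact h
      · exact absurd h hγ
    have hβ : β = 0 := by
      apply hcinj
      rw [map_zero]; exact hx1.symm
    have hi : i = 0 := by
      obtain ⟨y, hy, hyv⟩ := hsurj ![0, 1]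
      have h5 := (hti y hy).1
      rw [ht', inv_inv, hmul _ (mul_mem (inv_mem hx) hy) _ hx, hmul _ (inv_mem hx) _ hy, hinv x hx, h3, hyv] at h5
      simp at h5
      rcases h5 with h | h
      · exact h
      · exact absurd h hγ
    show uni p i α β = 1
    rw [hα, hβ, hi, uni_zero]
  · intro i α β
    obtain ⟨x, hx, hxv⟩ := hsurj ![cst α * γ, cst β]
    -- the element of `T'`
    let D : Subgroup X :=
      { carrier := {c | c ∈ T' ∧ Ce P₁ P₂ c}
        one_mem' := ⟨one_mem _, Ce.one⟩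
        mul_mem' := by
          rintro c d ⟨hc1, hc2⟩ ⟨hd1, hd2⟩
          exact ⟨mul_mem hc1 hd1, hc2.mul_Ce hd2 (hT'L1 hc1)⟩
        inv_mem' := by
          rintro c ⟨hc1, hc2⟩
          refine ⟨inv_mem hc1, fun x hx => ?_⟩
          have h1 := hcL' c (hTL hc1) x hx
          have h2 := P₁.inv_mem (hc2 _ h1)
          have e : (c * (c⁻¹ * x * c) * c⁻¹ * (c⁻¹ * x * c)⁻¹)⁻¹ = c⁻¹ * x * c⁻¹⁻¹ * x⁻¹ := by group
          rwa [e] at h2 }
    have hDn : ∀ y ∈ Subgroup.closure ({a, b} : Set X), y ∈ Subgroup.normalizer (T' : Set X) →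
        y ∈ Subgroup.normalizer (D : Set X) := by
      intro y hy hyT
      apply mem_norm_of_le
      rw [cj_le_iff]
      rintro c ⟨hc1, hc2⟩
      refine ⟨(Subgroup.mem_normalizer_iff.1 hyT c).1 hc1, fun x hx => ?_⟩
      have h2 := (Subgroup.mem_normalizer_iff.1 (hL1 hy) _).1 (hc2 _ (hcL' y hy x hx))
      have e : y * (c * (y⁻¹ * x * y) * c⁻¹ * (y⁻¹ * x * y)⁻¹) * y⁻¹ =
        y * c * y⁻¹ * x * (y * c * y⁻¹)⁻¹ * x⁻¹ := by group
      rwa [e] at h2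
    have hcop : (Nat.card (Subgroup.zpowers s)).Coprime (Nat.card T') := by
      rw [Nat.card_zpowers]
      obtain ⟨m, hm⟩ := hT'.exists_card_eq
      rw [hm]
      refine Nat.Coprime.coprime_dvd_left (orderOf_dvd_of_pow_eq_one hsn) ?_
      exact Nat.Coprime.pow_right _ ((Nat.Prime.coprime_iff_not_dvd hp.out).2 hn').symm
    obtain ⟨t, ht, htk⟩ := Cfsg.Agent.Cop.fixed_points_quotient (Subgroup.zpowers s) T'
      ((Subgroup.zpowers_le).2 hsT) hcop (Or.inl (by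
        apply Group.isSolvable_of_comm
        rintro ⟨_, i, rfl⟩ ⟨_, j, rfl⟩
        exact Subtype.ext ((Commute.refl s).zpow_zpow i j).eq)) D (fun d hd => hd.1)
      (fun t ht => hDn t (hTL ht) (Subgroup.le_normalizer ht)) ((Subgroup.zpowers_le).2 (hDn s hsL hsT))
      (a ^ i.val) (pow_mem haT _) (by
        intro σ hσ
        rw [← mem_powers_iff_mem_zpowers] at hσ
        obtain ⟨j, rfl⟩ := hσ
        refine ⟨T'.mul_mem ((Subgroup.mem_normalizer_iff.1 (pow_mem hsT j) _).1 (pow_mem haT _))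
          (T'.inv_mem (pow_mem haT _)), ?_⟩
        exact comm_triv (pow_mem (hL1 hsL) j) (pow_mem (hL2 hsL) j) (pow_mem (hL1 haL) _) (pow_mem (hL2 haL) _)
          hn hcomm (CeIv_pow (hL1 hsL) hsIv j))
    have hst : s * t = t * s := Subgroup.mem_centralizer_iff.1 ht.2 s (Subgroup.mem_zpowers s)
    refine ⟨x * t, x, hx, t, ht.1, i, α, β, rfl, hst, ?_, ?_, ?_⟩
    · intro y hy
      have h1 := htk.2 y hy
      have hd2 : (a ^ i.val)⁻¹ * t ∈ Subgroup.closure ({a, b} : Set X) := hTL htk.1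
      have h2 := (heq _ (hcL _ hd2 y hy) _ hy).1 h1
      have h3 := hAk i.val _ (hcL _ hd2 y hy)
      have e : a ^ i.val * ((a ^ i.val)⁻¹ * t * y * ((a ^ i.val)⁻¹ * t)⁻¹) * (a ^ i.val)⁻¹ = t * y * t⁻¹ := by group
      rw [e, h2] at h3
      have h5 : ((i.val : ℕ) : F) = cst i := by
        nth_rewrite 2 [← ZMod.natCast_zmod_val i]
        rw [map_natCast]
      rw [h5] at h3
      exact h3
    · rw [hxv]; rfl
    · rw [hxv]; rfl
  · rintro _ ⟨x, hx, t, ht, i, α, β, rfl, -⟩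
    exact ⟨i, α, β, rfl⟩
  · rintro _ ⟨x, hx, t, ht, i, α, β, rfl, hst, hti, hx0, hx1⟩
    have htz : z' * t * z'⁻¹ ∈ T' := (Subgroup.mem_normalizer_iff.1 hz'T t).1 ht
    refine ⟨z' * x * z'⁻¹, hcL z' hz'L x hx, z' * t * z'⁻¹, htz, (μ : ZMod p) * μ * i, (μ : ZMod p) * α,
      ((μ⁻¹ : (ZMod p)ˣ) : ZMod p) * β, ?_, ?_, ?_, ?_, ?_⟩
    · show (z' * (x * t) * z'⁻¹, tor p μ * uni p i α β * (tor p μ)⁻¹) = _
      rw [tor_conj]
      congr 1
      group
    · calc s * (z' * t * z'⁻¹) = (s * z') * t * z'⁻¹ := by group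
        _ = z' * (s * t) * z'⁻¹ := by rw [hsz.eq]; group
        _ = z' * t * (s * z'⁻¹) := by rw [hst]; group
        _ = z' * t * z'⁻¹ * s := by rw [(hsz.inv_right).eq]; group
    · intro y hy
      have e : z' * t * z'⁻¹ * y * (z' * t * z'⁻¹)⁻¹ = z' * (t * (z'⁻¹ * y * z') * t⁻¹) * z'⁻¹ := by group
      have h1 := hz'0 _ (hcL t (hTL ht) _ (hcL' z' hz'L y hy))
      have h2 := hti _ (hcL' z' hz'L y hy)
      have h3 := hz'i y hy
      rw [e, h1.1, h1.2, h2.1, h2.2, h3.1, h3.2, map_mul, map_mul, ← hc]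
      constructor
      · field_simp
      · field_simp
    · rw [(hz'0 x hx).1, hx0, map_mul, ← hc]; ring
    · rw [(hz'0 x hx).2, hx1, map_mul]
      congr 1
      rw [hc]
      have : cst ((μ⁻¹ : (ZMod p)ˣ) : ZMod p) * cst (μ : ZMod p) = 1 := by
        rw [← map_mul, Units.inv_mul, map_one]
      exact (eq_inv_of_mul_eq_one_left this).symm

theorem fEP {p : ℕ} [hp : Fact p.Prime] (hp2 : p ≠ 2) : EP.{u} p (fun X _ => FX p X) where
  inj := fun f hf h => FX.inj f hf h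
  quot := fun N _ h => FX.quot N h
  ctl := fun S H hSH h h' => FX.ctl S H hSH h h'
  loc := fun P hP a b hL hqa hqb hap hg => f_loc hp2 hP hL hqa hqb hap hg

end Cfsg.Agent.ZJFail
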