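import Cfsg.Agent.ZJFail.AL
import Cfsg.Agent.ZJFail.FLoc
/-!
An eigenvector in `z(T)`.
-/
set_option autoImplicit false
set_option linter.all false

namespace Cfsg.Agent.ZJFail

open Cfsg Cfsg.Agent.H33 Cfsg.Agent.QdInv

universe u

section

variable {G : Type u} [Group G] [Finite G] {p : ℕ} [hp : Fact p.Prime]

theorem ce_of_coprime {P₁ P₂ P₃ : Subgroup G} (h3 : IsPGroup p P₃) (hc : ∀ x ∈ P₃, ∀ y ∈ P₃, x * y = y * x)
    (h12 : P₁ ≤ P₂) (h23 : P₂ ≤ P₃) {g : G} (hg2 : g ∈ Subgroup.normalizer (P₂ : Set G))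
    (hg3 : g ∈ Subgroup.normalizer (P₃ : Set G)) (hgo : (orderOf g).Coprime p) (hce : Ce P₂ P₃ g)
    (hce' : Ce P₁ P₂ g) : Ce P₁ P₃ g := by
  intro x hx
  have hcop : (Nat.card (Subgroup.zpowers g)).Coprime (Nat.card P₃) := by
    rw [Nat.card_zpowers]
    obtain ⟨n, hn⟩ := h3.exists_card_eq
    rw [hn]
    exact Nat.Coprime.pow_right _ hgo
  obtain ⟨c, hc1, hcx⟩ := Cfsg.Agent.Cop.fixed_points_quotient (Subgroup.zpowers g) P₃
    ((Subgroup.zpowers_le).2 hg3) hcop (Or.inl (by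
      apply Group.isSolvable_of_comm
      rintro ⟨_, i, rfl⟩ ⟨_, j, rfl⟩
      exact Subtype.ext ((Commute.refl g).zpow_zpow i j).eq)) P₂ h23 (by
      intro y hy
      apply mem_norm_of_le
      rw [cj_le_iff]
      intro w hw
      rw [hc y hy w (h23 hw), mul_inv_cancel_right]
      exact hw) ((Subgroup.zpowers_le).2 hg2) x hx (by
      intro a ha
      rw [← mem_powers_iff_mem_zpowers] at ha
      obtain ⟨j, rfl⟩ := ha
      exact hce.pow hg2 j x hx)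
  have h8 : g * c * g⁻¹ = c := by
    have : g * c = c * g := Subgroup.mem_centralizer_iff.1 hc1.2 g (Subgroup.mem_zpowers g)
    rw [this]; group
  have h9 := hce' _ (P₂.inv_mem hcx)
  have hgi : g * (x⁻¹ * c)⁻¹ * g⁻¹ ∈ P₃ := (Subgroup.mem_normalizer_iff.1 hg3 _).1 (h23 (P₂.inv_mem hcx))
  have e : g * x * g⁻¹ * x⁻¹ = g * (x⁻¹ * c)⁻¹ * g⁻¹ * (x⁻¹ * c)⁻¹⁻¹ := by
    have e1 : g * (x⁻¹ * c)⁻¹ * g⁻¹ = (g * c * g⁻¹)⁻¹ * (g * x * g⁻¹) := by group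
    rw [e1, h8]
    have hgx : g * x * g⁻¹ ∈ P₃ := (Subgroup.mem_normalizer_iff.1 hg3 _).1 hx
    have h10 := hc _ (P₃.mul_mem (P₃.inv_mem hc1.1) hgx) _ (P₃.mul_mem (P₃.inv_mem hx) hc1.1)
    have h11 := hc _ hc1.1 _ (P₃.mul_mem (P₃.inv_mem hc1.1) hgx)
    have h12 := hc _ hgx _ (P₃.inv_mem hx)
    calc g * x * g⁻¹ * x⁻¹ = x⁻¹ * (g * x * g⁻¹) := h12
      _ = x⁻¹ * (c * (c⁻¹ * (g * x * g⁻¹))) := by group
      _ = (x⁻¹ * c) * (c⁻¹ * (g * x * g⁻¹)) := by group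
      _ = (c⁻¹ * (g * x * g⁻¹)) * (x⁻¹ * c) := h10.symm
      _ = _ := by group
  rw [e]
  exact h9

theorem torus_struct (hp2 : p ≠ 2) {P₁ P₂ : Subgroup G} {a b g : G} (hlt : P₁ < P₂)
    (hL1 : Subgroup.closure {a, b} ≤ Subgroup.normalizer (P₁ : Set G))
    (hL2 : Subgroup.closure {a, b} ≤ Subgroup.normalizer (P₂ : Set G))
    (hn : P₂ ≤ Subgroup.normalizer (P₁ : Set G)) (hpow : ∀ x ∈ P₂, x ^ p ∈ P₁)
    (hcomm : ∀ x ∈ P₂, ∀ y ∈ P₂, x * y * x⁻¹ * y⁻¹ ∈ P₁) (hg : g ∈ Subgroup.closure {a, b})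
    (hgx : ∃ x ∈ P₂, g * x * g⁻¹ * x⁻¹ ∉ P₁)
    (hirr : ∀ U, P₁ ≤ U → U ≤ P₂ → Subgroup.closure {a, b} ≤ Subgroup.normalizer (U : Set G) →
      U = P₁ ∨ U = P₂) (hqa : H11.Quad a P₂) (hqb : H11.Quad b P₂) (hap : ∃ k, a ^ p ^ k = 1)
    (μ : (ZMod p)ˣ) :
    ∃ (F : Type) (_ : Field F) (_ : Finite F) (_ : CharP F p) (cst : ZMod p →+* F) (π : G → (Fin 2 → F)),
      Function.Injective cst ∧ (∀ x ∈ P₂, ∀ y ∈ P₂, π (x * y) = π x + π y) ∧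
      (∀ x ∈ P₂, π x = 0 ↔ x ∈ P₁) ∧ ∃ T' : Subgroup G, IsPGroup p T' ∧ a ∈ T' ∧
      T' ≤ Subgroup.closure {a, b} ∧ ∃ z' ∈ Subgroup.closure {a, b}, z' ∈ Subgroup.normalizer (T' : Set G) ∧
        ∀ x ∈ P₂, π (z' * x * z'⁻¹) 0 = cst (μ : ZMod p) * π x 0 ∧
          π (z' * x * z'⁻¹) 1 = (cst (μ : ZMod p))⁻¹ * π x 1 := by
  obtain ⟨F, j1, j2, j3, γ, π, hγ, hmul, hsurj, hzero, hA, hB, hR⟩ := exists_struct hp2 hlt hL1 hL2 hn
    hpow hcomm hg hgx hirr hqa hqb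
  obtain ⟨cst, hcst⟩ : ∃ cst : ZMod p →+* F, cst = ZMod.castHom (dvd_refl p) F := ⟨_, rfl⟩
  have hcinj : Function.Injective cst := by rw [hcst]; exact RingHom.injective _
  obtain ⟨c, hc⟩ : ∃ c : F, c = cst (μ : ZMod p) := ⟨_, rfl⟩
  have hc0 : c ≠ 0 := by
    rw [hc]
    intro h
    exact μ.ne_zero (hcinj (h.trans (map_zero _).symm))
  obtain ⟨M, hM, hMv⟩ := torus_mem (p := p) hp2 γ hγ μ c (by rw [hc, hcst])
  obtain ⟨z, hz, hzπ⟩ := hR M hM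
  have hcL : ∀ d ∈ Subgroup.closure ({a, b} : Set G), ∀ x ∈ P₂, d * x * d⁻¹ ∈ P₂ := fun d hd x hx =>
    (Subgroup.mem_normalizer_iff.1 (hL2 hd) x).1 hx
  have hcL' : ∀ d ∈ Subgroup.closure ({a, b} : Set G), ∀ x ∈ P₂, d⁻¹ * x * d ∈ P₂ := by
    intro d hd x hx
    have := hcL d⁻¹ (inv_mem hd) x hx
    rwa [inv_inv] at this
  have haL : a ∈ Subgroup.closure ({a, b} : Set G) := Subgroup.subset_closure (by simp)
  have hπ1 : π 1 = 0 := (hzero 1 (one_mem _)).2 (one_mem _)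
  have hinv : ∀ x ∈ P₂, π x⁻¹ = - π x := by
    intro x hx
    have h3 := hmul x hx x⁻¹ (inv_mem hx)
    rw [mul_inv_cancel, hπ1] at h3
    exact (eq_neg_of_add_eq_zero_right h3.symm)
  have heq : ∀ x ∈ P₂, ∀ y ∈ P₂, x * y⁻¹ ∈ P₁ ↔ π x = π y := by
    intro x hx y hy
    rw [← hzero _ (mul_mem hx (inv_mem hy)), hmul x hx _ (inv_mem hy), hinv y hy]
    exact add_neg_eq_zero
  -- coordinates
  have hA0 : ∀ x ∈ P₂, π (a * x * a⁻¹) 0 = π x 0 + γ * π x 1 ∧ π (a * x * a⁻¹) 1 = π x 1 := by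
    intro x hx
    rw [hA x hx, H11.slU_val]
    constructor <;> simp [Matrix.mulVec, dotProduct, Fin.sum_univ_two]
  have hz0 : ∀ x ∈ P₂, π (z * x * z⁻¹) 0 = c * π x 0 ∧ π (z * x * z⁻¹) 1 = c⁻¹ * π x 1 := by
    intro x hx
    rw [hzπ x hx, hMv]
    constructor <;> simp [Matrix.mulVec, dotProduct, Fin.sum_univ_two]
  have hAk : ∀ k : ℕ, ∀ x ∈ P₂, π (a ^ k * x * (a ^ k)⁻¹) 0 = π x 0 + (k : F) * γ * π x 1 ∧
      π (a ^ k * x * (a ^ k)⁻¹) 1 = π x 1 := by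
    intro k
    induction k with
    | zero => intro x hx; simp
    | succ k ih =>
      intro x hx
      have e : a ^ (k + 1) * x * (a ^ (k + 1))⁻¹ = a * (a ^ k * x * (a ^ k)⁻¹) * a⁻¹ := by
        rw [pow_succ']; group
      have h1 := hA0 _ (hcL _ (pow_mem haL k) x hx)
      have h2 := ih x hx
      rw [e, h1.1, h1.2, h2.1, h2.2]
      refine ⟨?_, rfl⟩
      push_cast
      ring
  have hext : ∀ v w : Fin 2 → F, v 0 = w 0 → v 1 = w 1 → v = w := by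
    intro v w h0 h1
    ext i
    fin_cases i
    · exact h0
    · exact h1
  -- inverse action
  have hzi : ∀ x ∈ P₂, π (z⁻¹ * x * z) 0 = c⁻¹ * π x 0 ∧ π (z⁻¹ * x * z) 1 = c * π x 1 := by
    intro x hx
    have h1 := hz0 _ (hcL' z hz x hx)
    have e : z * (z⁻¹ * x * z) * z⁻¹ = x := by group
    rw [e] at h1
    rw [h1.1, h1.2]
    constructor
    · rw [← mul_assoc, inv_mul_cancel₀ hc0, one_mul]
    · rw [← mul_assoc, mul_inv_cancel₀ hc0, one_mul]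
  obtain ⟨T', hT', haT, hTL, z', hz'L, hz'T, hz'x⟩ := exists_norm_T (p := p) hz hL1 hL2 hap
    ((μ : ZMod p) * μ).val (by
    intro x hx
    rw [heq _ (hcL _ (mul_mem (mul_mem hz haL) (inv_mem hz)) x hx) _ (hcL _ (pow_mem haL _) x hx)]
    have e : z * a * z⁻¹ * x * (z * a * z⁻¹)⁻¹ = z * (a * (z⁻¹ * x * z) * a⁻¹) * z⁻¹ := by group
    have h1 := hz0 _ (hcL a haL _ (hcL' z hz x hx))
    have h2 := hA0 _ (hcL' z hz x hx)
    have h3 := hzi x hx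
    have h4 := hAk ((μ : ZMod p) * μ).val x hx
    have h5 : ((((μ : ZMod p) * μ).val : ℕ) : F) = c * c := by
      rw [hc, ← map_mul]
      nth_rewrite 2 [← ZMod.natCast_zmod_val ((μ : ZMod p) * (μ : ZMod p))]
      rw [map_natCast]
    apply hext
    · rw [e, h1.1, h2.1, h3.1, h3.2, h4.1, h5]
      field_simp
    · rw [e, h1.2, h2.2, h3.2, h4.2]
      field_simp)
  refine ⟨F, j1, j2, j3, cst, π, hcinj, hmul, hzero, T', hT', haT, hTL, z', hz'L, hz'T, ?_⟩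
  intro x hx
  have h1 := (heq _ (hcL _ hz'L x hx) _ (hcL _ hz x hx)).1 (hz'x x hx)
  rw [h1, ← hc]
  exact hz0 x hx

theorem minus_one (hp2 : p ≠ 2) {P₁ P₂ : Subgroup G} {F : Type*} [Field F] (cst : ZMod p →+* F)
    (π : G → (Fin 2 → F)) (hmul : ∀ x ∈ P₂, ∀ y ∈ P₂, π (x * y) = π x + π y) (hzero : ∀ x ∈ P₂, π x = 0 ↔ x ∈ P₁)
    {z' : G} (hz'2 : z' ∈ Subgroup.normalizer (P₂ : Set G)) (μ : (ZMod p)ˣ) (hμ : orderOf μ = p - 1)
    (hz'0 : ∀ x ∈ P₂, π (z' * x * z'⁻¹) 0 = cst (μ : ZMod p) * π x 0 ∧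
          π (z' * x * z'⁻¹) 1 = (cst (μ : ZMod p))⁻¹ * π x 1) :
    ∃ s ∈ Subgroup.zpowers z', (orderOf s).Coprime p ∧ Iv P₁ P₂ s := by
  obtain ⟨c, hc⟩ : ∃ c : F, c = cst (μ : ZMod p) := ⟨_, rfl⟩
  rw [← hc] at hz'0
  have hcL : ∀ d ∈ Subgroup.normalizer (P₂ : Set G), ∀ x ∈ P₂, d * x * d⁻¹ ∈ P₂ := fun d hd x hx =>
    (Subgroup.mem_normalizer_iff.1 hd x).1 hx
  have hz'k : ∀ k : ℕ, ∀ x ∈ P₂, π (z' ^ k * x * (z' ^ k)⁻¹) 0 = c ^ k * π x 0 ∧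
      π (z' ^ k * x * (z' ^ k)⁻¹) 1 = (c⁻¹) ^ k * π x 1 := by
    intro k
    induction k with
    | zero => intro x hx; simp
    | succ k ih =>
      intro x hx
      have e : z' ^ (k + 1) * x * (z' ^ (k + 1))⁻¹ = z' * (z' ^ k * x * (z' ^ k)⁻¹) * z'⁻¹ := by
        rw [pow_succ']; group
      have h1 := hz'0 _ (hcL _ (pow_mem hz'2 k) x hx)
      have h2 := ih x hx
      rw [e, h1.1, h1.2, h2.1, h2.2]
      constructor
      · rw [pow_succ']; ring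
      · rw [pow_succ']; ring
  obtain ⟨e, n, hn', hN⟩ := Nat.exists_eq_pow_mul_and_not_dvd (orderOf_pos z').ne' p hp.out.ne_one
  obtain ⟨s, hs⟩ : ∃ s : G, s = z' ^ ((p - 1) / 2 * p ^ e) := ⟨_, rfl⟩
  have hsL : s ∈ Subgroup.normalizer (P₂ : Set G) := by rw [hs]; exact pow_mem hz'2 _
  have hsn : s ^ n = 1 := by
    rw [hs, ← pow_mul]
    have : (p - 1) / 2 * p ^ e * n = orderOf z' * ((p - 1) / 2) := by rw [hN]; ring
    rw [this, pow_mul, pow_orderOf_eq_one, one_pow]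
  have hcp : c ^ ((p - 1) / 2 * p ^ e) = -1 := by
    have h1 := gen_half hp2 hμ
    have h2 : c ^ ((p - 1) / 2) = -1 := by
      rw [hc, ← map_pow, h1, map_neg, map_one]
    rw [pow_mul, h2]
    exact ((hp.out.odd_of_ne_two hp2).pow).neg_one_pow
  refine ⟨s, by rw [hs]; exact Subgroup.npow_mem_zpowers z' _, ?_, ?_⟩
  · exact Nat.Coprime.coprime_dvd_left (orderOf_dvd_of_pow_eq_one hsn)
      ((Nat.Prime.coprime_iff_not_dvd hp.out).2 hn').symm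
  · intro x hx
    have h1 := hz'k ((p - 1) / 2 * p ^ e) x hx
    rw [← hs] at h1
    rw [← hzero _ (mul_mem (hcL s hsL x hx) hx), hmul _ (hcL s hsL x hx) _ hx]
    ext i
    fin_cases i
    · show π (s * x * s⁻¹) 0 + π x 0 = 0
      rw [h1.1, hcp, neg_one_mul, neg_add_cancel]
    · show π (s * x * s⁻¹) 1 + π x 1 = 0
      rw [h1.2, inv_pow, hcp, inv_neg, inv_one, neg_one_mul, neg_add_cancel]

end

end Cfsg.Agent.ZJFail
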