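import Cfsg.Agent.QdInv.Climb
import Cfsg.Agent.H11.PAct
/-!
Alperin's theorem for control by a subgroup `M`, with a maximal bad subgroup.
-/
set_option autoImplicit false
set_option linter.all false

namespace Cfsg.Agent.ZJFail

open Cfsg Cfsg.Agent.H33 Cfsg.Agent.QdInv
open scoped commutatorElement

universe u

section

variable {G : Type u} [Group G] [Finite G] {p : ℕ} [hp : Fact p.Prime]

/-- conjugation of `A` by `g` is realized in `M` -/
def Ct (M A : Subgroup G) (g : G) : Prop := ∃ m ∈ M, ∀ a ∈ A, g * a * g⁻¹ = m * a * m⁻¹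

theorem Ct.mono {M A A' : Subgroup G} {g : G} (h : Ct M A g) (hA : A' ≤ A) : Ct M A' g := by
  obtain ⟨m, hm, h1⟩ := h
  exact ⟨m, hm, fun a ha => h1 a (hA ha)⟩

theorem Ct.of_mem {M A : Subgroup G} {g : G} (h : g ∈ M) : Ct M A g := ⟨g, h, fun _ _ => rfl⟩

theorem Ct.comp {M A : Subgroup G} {g h : G} (h1 : Ct M A g) (h2 : Ct M (cj g A) h) : Ct M A (h * g) := by
  obtain ⟨m, hm, e1⟩ := h1
  obtain ⟨n, hn, e2⟩ := h2
  refine ⟨n * m, M.mul_mem hn hm, fun a ha => ?_⟩
  have h3 := e2 _ (conj_mem_cj ha)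
  calc h * g * a * (h * g)⁻¹ = h * (g * a * g⁻¹) * h⁻¹ := by group
    _ = n * (g * a * g⁻¹) * n⁻¹ := h3
    _ = n * (m * a * m⁻¹) * n⁻¹ := by rw [e1 a ha]
    _ = _ := by group

theorem Ct.inv' {M A : Subgroup G} {g : G} (h1 : Ct M A g) : Ct M (cj g A) g⁻¹ := by
  obtain ⟨m, hm, e1⟩ := h1
  refine ⟨m⁻¹, M.inv_mem hm, fun a ha => ?_⟩
  have h3 := e1 _ (mem_cj.1 ha)
  have e : g * (g⁻¹ * a * g) * g⁻¹ = a := by group
  rw [e] at h3
  rw [inv_inv]
  calc g⁻¹ * a * g = m⁻¹ * (m * (g⁻¹ * a * g) * m⁻¹) * m := by group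
    _ = m⁻¹ * a * m := by rw [← h3]
    _ = _ := by group

theorem Ct.of_centralizer {M A : Subgroup G} {g : G} (h : g ∈ Subgroup.centralizer (A : Set G)) : Ct M A g := by
  refine ⟨1, M.one_mem, fun a ha => ?_⟩
  have : a * g = g * a := Subgroup.mem_centralizer_iff.1 h a ha
  rw [← this]; group

/-- for elements of the normalizer -/
theorem Ct.mul {M A : Subgroup G} {g h : G} (hg : g ∈ Subgroup.normalizer (A : Set G)) (h1 : Ct M A g)
    (h2 : Ct M A h) : Ct M A (h * g) := by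
  apply h1.comp
  rwa [mem_norm_iff.1 hg]

theorem Ct.inv {M A : Subgroup G} {g : G} (hg : g ∈ Subgroup.normalizer (A : Set G)) (h1 : Ct M A g) :
    Ct M A g⁻¹ := by
  have := h1.inv'
  rwa [mem_norm_iff.1 hg] at this

theorem ct_norm {A B Z : Subgroup G} (hBA : B ≤ A) {y : G} (hy : y ∈ Subgroup.normalizer (B : Set G))
    (h : Ct (Subgroup.normalizer (Z : Set G)) A y) : y ∈ Subgroup.normalizer ((B ⊓ Z : Subgroup G) : Set G) := by
  obtain ⟨m, hm, h1⟩ := h
  apply mem_norm_of_le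
  rw [cj_le_iff]
  rintro x ⟨hx, hx'⟩
  refine ⟨(Subgroup.mem_normalizer_iff.1 hy x).1 hx, ?_⟩
  rw [h1 x (hBA hx)]
  exact (Subgroup.mem_normalizer_iff.1 hm x).1 hx'

theorem exists_tame (S : Sylow p G) {A : Subgroup G} (hA : A ≤ (S : Subgroup G)) :
    ∃ a : G, cj a A ≤ (S : Subgroup G) ∧ cj a (nS (S : Subgroup G) A) ≤ (S : Subgroup G) ∧
      IsSyl p (nS (S : Subgroup G) (cj a A)) (Subgroup.normalizer ((cj a A : Subgroup G) : Set G)) := by
  obtain ⟨a, h1, h2⟩ := exists_cj_isSyl S (H := Subgroup.normalizer (A : Set G)) (R := nS (S : Subgroup G) A)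
    inf_le_right (isPGroup_nS S.2)
  refine ⟨a, (cj_mono (le_inf hA Subgroup.le_normalizer)).trans h1, h1, ?_⟩
  rw [cj_normalizer] at h2
  exact h2

theorem alp1 (S : Sylow p G) {M : Subgroup G} (hSM : Subgroup.normalizer ((S : Subgroup G) : Set G) ≤ M) (r : ℕ)
    (h : ∀ U ≤ (S : Subgroup G), U ≠ (S : Subgroup G) →
      IsSyl p (nS (S : Subgroup G) U) (Subgroup.normalizer ((U : Subgroup G) : Set G)) → r ≤ Nat.card U →
      ∀ y ∈ Subgroup.normalizer (U : Set G), Ct M U y) :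
    ∀ A ≤ (S : Subgroup G), r ≤ Nat.card A → ∀ g, cj g A ≤ (S : Subgroup G) → Ct M A g := by
  have key : ∀ A, A ≤ (S : Subgroup G) → ∀ g, cj g A ≤ (S : Subgroup G) → (r ≤ Nat.card A → Ct M A g) := by
    refine alperin_abstract S ⊥ bot_le (fun A g => r ≤ Nat.card A → Ct M A g) ?_ ?_ ?_ ?_ ?_
    · intro A' A g hA' hA hg h1 h2
      exact (h1 (h2.trans (Subgroup.card_le_of_le hA'))).mono hA'
    · intro A g h hA hg hhg h1 h2 h3
      exact (h1 h3).comp (h2 (by rw [card_cj]; exact h3))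
    · intro A g hA hg h1 h2
      rw [card_cj] at h2
      exact (h1 h2).inv'
    · intro g hg _
      exact Ct.of_mem (hSM hg)
    · intro A _ hAS _
      obtain ⟨a, h1, h2, h3⟩ := exists_tame S hAS.le
      refine ⟨a, h1, h3, fun y hy hr => ?_⟩
      refine h _ h1 ?_ h3 hr y hy
      intro h4
      have h5 := card_cj a A
      rw [h4] at h5
      have := card_lt_card_of_lt hAS
      omega
  intro A hA hr g hg
  exact key A hA g hg hr

/-- a maximal bad subgroup -/
theorem exists_bad (S : Sylow p G) {M : Subgroup G} (hSM : Subgroup.normalizer ((S : Subgroup G) : Set G) ≤ M)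
    (h : ¬ ∀ A ≤ (S : Subgroup G), ∀ g, cj g A ≤ (S : Subgroup G) → Ct M A g) :
    ∃ U ≤ (S : Subgroup G), IsSyl p (nS (S : Subgroup G) U) (Subgroup.normalizer ((U : Subgroup G) : Set G)) ∧
      (∃ y ∈ Subgroup.normalizer (U : Set G), ¬ Ct M U y) ∧
      ∀ A ≤ (S : Subgroup G), (Nat.card (nS (S : Subgroup G) U) < Nat.card (nS (S : Subgroup G) A) ∨
        (Nat.card (nS (S : Subgroup G) U) ≤ Nat.card (nS (S : Subgroup G) A) ∧ Nat.card U < Nat.card A)) →
        ∀ y ∈ Subgroup.normalizer (A : Set G), Ct M A y := by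
  classical
  let Bad : Set (Subgroup G) := {U | U ≤ (S : Subgroup G) ∧ IsSyl p (nS (S : Subgroup G) U)
    (Subgroup.normalizer ((U : Subgroup G) : Set G)) ∧ ∃ y ∈ Subgroup.normalizer (U : Set G), ¬ Ct M U y}
  have hne : Bad.Nonempty := by
    by_contra hcon
    rw [Set.not_nonempty_iff_eq_empty] at hcon
    apply h
    intro A hA g hg
    refine alp1 S hSM 0 ?_ A hA (Nat.zero_le _) g hg
    intro U hU _ hUs _ y hy
    by_contra h1
    have : U ∈ Bad := ⟨hU, hUs, y, hy, h1⟩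
    rw [hcon] at this
    exact this
  let f : Subgroup G → ℕ := fun U => Nat.card (nS (S : Subgroup G) U) * (Nat.card G + 1) + Nat.card U
  obtain ⟨U, ⟨hUS, hUs, hUb⟩, hmax⟩ := exists_max_nat Bad f hne
  refine ⟨U, hUS, hUs, hUb, ?_⟩
  have hcle : ∀ A : Subgroup G, Nat.card A ≤ Nat.card G := fun A => Subgroup.card_le_card_group A
  have hnb : ∀ A ≤ (S : Subgroup G), IsSyl p (nS (S : Subgroup G) A) (Subgroup.normalizer ((A : Subgroup G) : Set G)) →
      (Nat.card (nS (S : Subgroup G) U) < Nat.card (nS (S : Subgroup G) A) ∨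
        (Nat.card (nS (S : Subgroup G) U) ≤ Nat.card (nS (S : Subgroup G) A) ∧ Nat.card U < Nat.card A)) →
      ∀ y ∈ Subgroup.normalizer (A : Set G), Ct M A y := by
    intro A hA hAs hlt y hy
    by_contra h1
    have h2 := hmax A ⟨hA, hAs, y, hy, h1⟩
    have h3 := hcle A
    have h4 := hcle U
    change Nat.card (nS (S : Subgroup G) A) * (Nat.card G + 1) + Nat.card A ≤
      Nat.card (nS (S : Subgroup G) U) * (Nat.card G + 1) + Nat.card U at h2
    rcases hlt with h5 | ⟨h5, h6⟩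
    · nlinarith
    · nlinarith
  -- control for large subgroups
  have hNB1 : ∀ A ≤ (S : Subgroup G), Nat.card (nS (S : Subgroup G) U) ≤ Nat.card A →
      ∀ g, cj g A ≤ (S : Subgroup G) → Ct M A g := by
    apply alp1 S hSM
    intro A hA hAne hAs hr y hy
    refine hnb A hA hAs (Or.inl ?_) y hy
    have hlt : A < (S : Subgroup G) := lt_of_le_of_ne hA hAne
    exact lt_of_le_of_lt hr (card_lt_card_of_lt (lt_inf_normalizer S.2 hlt))
  intro A hA hlt y hy
  obtain ⟨a, h1, h2, h3⟩ := exists_tame S hA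
  have hr : Nat.card (nS (S : Subgroup G) U) ≤ Nat.card (nS (S : Subgroup G) A) := by
    rcases hlt with h5 | h5
    · exact h5.le
    · exact h5.1
  have hAN : A ≤ nS (S : Subgroup G) A := le_inf hA Subgroup.le_normalizer
  have h4 : Ct M A a := (hNB1 _ inf_le_left hr a h2).mono hAN
  have h5 : Nat.card (nS (S : Subgroup G) A) ≤ Nat.card (nS (S : Subgroup G) (cj a A)) := by
    rw [← card_cj a (nS (S : Subgroup G) A)]
    apply Subgroup.card_le_of_le
    refine le_inf h2 ?_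
    rw [← cj_normalizer]
    exact cj_mono inf_le_right
  have h6 : ∀ y ∈ Subgroup.normalizer ((cj a A : Subgroup G) : Set G), Ct M (cj a A) y := by
    apply hnb _ h1 h3
    rcases hlt with h7 | ⟨h7, h8⟩
    · exact Or.inl (h7.trans_le h5)
    · exact Or.inr ⟨h7.trans h5, by rw [card_cj]; exact h8⟩
  have h7 : a * y * a⁻¹ ∈ Subgroup.normalizer ((cj a A : Subgroup G) : Set G) := by
    rw [← cj_normalizer]; exact conj_mem_cj hy
  have h8 := h4.comp (h6 _ h7)
  have h9 := h4.inv'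
  have h10 : cj (a * y * a⁻¹ * a) A = cj a A := by
    have : a * y * a⁻¹ * a = a * y := by group
    rw [this, cj_mul, mem_norm_iff.1 hy]
  have h11 : Ct M A (a⁻¹ * (a * y * a⁻¹ * a)) := by
    apply h8.comp
    rw [h10]
    exact h9
  have e : a⁻¹ * (a * y * a⁻¹ * a) = y := by group
  rwa [e] at h11

end

end Cfsg.Agent.ZJFail
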