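import Cfsg.Agent.ZJFail.Alp
import Cfsg.Agent.QdInv.QuadLoc
/-!
The configuration of a maximal bad subgroup.
-/
set_option autoImplicit false
set_option linter.all false

namespace Cfsg.Agent.ZJFail

open Cfsg Cfsg.Agent.H33 Cfsg.Agent.QdInv
open scoped commutatorElement

universe u

section

variable {G : Type u} [Group G] [Finite G] {p : ℕ} [hp : Fact p.Prime]

theorem fix_of_coprime {U V : Subgroup G} (hU : IsPGroup p U) (hVU : V ≤ U)
    (hUV : U ≤ Subgroup.normalizer (V : Set G)) {y : G} (hyU : y ∈ Subgroup.normalizer (U : Set G))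
    (hyV : y ∈ Subgroup.normalizer (V : Set G)) (hyo : (orderOf y).Coprime p) (hce : Ce V U y)
    (hc : ∀ x ∈ V, y * x = x * y) : ∀ x ∈ U, y * x = x * y := by
  intro x hx
  have hcop : (Nat.card (Subgroup.zpowers y)).Coprime (Nat.card U) := by
    rw [Nat.card_zpowers]
    obtain ⟨n, hn⟩ := hU.exists_card_eq
    rw [hn]
    exact Nat.Coprime.pow_right _ hyo
  obtain ⟨c, hc1, hcx⟩ := Cfsg.Agent.Cop.fixed_points_quotient (Subgroup.zpowers y) U
    ((Subgroup.zpowers_le).2 hyU) hcop (Or.inl (by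
      apply Group.isSolvable_of_comm
      rintro ⟨_, i, rfl⟩ ⟨_, j, rfl⟩
      exact Subtype.ext ((Commute.refl y).zpow_zpow i j).eq)) V hVU hUV ((Subgroup.zpowers_le).2 hyV) x hx (by
      intro a ha
      rw [← mem_powers_iff_mem_zpowers] at ha
      obtain ⟨j, rfl⟩ := ha
      exact hce.pow hyV j x hx)
  have h8 : Commute y c := Subgroup.mem_centralizer_iff.1 hc1.2 y (Subgroup.mem_zpowers y)
  have h9 : Commute y (x⁻¹ * c) := hc _ hcx
  have h10 : x = c * (x⁻¹ * c)⁻¹ := by group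
  have h11 : Commute y (c * (x⁻¹ * c)⁻¹) := h8.mul_right h9.inv_right
  rw [← h10] at h11
  exact h11.eq

/-- the configuration -/
structure Cf (S : Sylow p G) (Z U : Subgroup G) : Prop where
  hZS : Z ≤ (S : Subgroup G)
  hZc : ∀ x ∈ Z, ∀ y ∈ Z, x * y = y * x
  hSZ : Subgroup.normalizer ((S : Subgroup G) : Set G) ≤ Subgroup.normalizer (Z : Set G)
  hU : U ≤ (S : Subgroup G)
  hs : IsSyl p (nS (S : Subgroup G) U) (Subgroup.normalizer ((U : Subgroup G) : Set G))
  bad : ∃ y ∈ Subgroup.normalizer (U : Set G), ¬ Ct (Subgroup.normalizer (Z : Set G)) U y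
  nb : ∀ A ≤ (S : Subgroup G), (Nat.card (nS (S : Subgroup G) U) < Nat.card (nS (S : Subgroup G) A) ∨
        (Nat.card (nS (S : Subgroup G) U) ≤ Nat.card (nS (S : Subgroup G) A) ∧ Nat.card U < Nat.card A)) →
        ∀ y ∈ Subgroup.normalizer (A : Set G), Ct (Subgroup.normalizer (Z : Set G)) A y

namespace Cf

variable {S : Sylow p G} {Z U : Subgroup G}

theorem SZ (h : Cf S Z U) : (S : Subgroup G) ≤ Subgroup.normalizer (Z : Set G) :=
  Subgroup.le_normalizer.trans h.hSZ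

theorem UR (h : Cf S Z U) : U ≤ nS (S : Subgroup G) U := le_inf h.hU Subgroup.le_normalizer

theorem Up (h : Cf S Z U) : IsPGroup p U := isPGroup_sub S.2 h.hU

theorem nb' (h : Cf S Z U) {A : Subgroup G} (hUA : U ≤ A) (hne : ¬ A ≤ U) (hAS : A ≤ (S : Subgroup G))
    (hRA : nS (S : Subgroup G) U ≤ Subgroup.normalizer (A : Set G)) :
    ∀ y ∈ Subgroup.normalizer (A : Set G), Ct (Subgroup.normalizer (Z : Set G)) A y := by
  apply h.nb A hAS
  right
  refine ⟨Subgroup.card_le_of_le (le_inf inf_le_left hRA), card_lt_card_of_lt (lt_of_le_of_ne hUA ?_)⟩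
  rintro rfl
  exact hne le_rfl

theorem noD (h : Cf S Z U) (D : Subgroup G) (hDY : D ≤ Subgroup.normalizer (U : Set G))
    (hYD : Subgroup.normalizer (U : Set G) ≤ Subgroup.normalizer (D : Set G))
    (hD : ∀ y ∈ D, (orderOf y).Coprime p → ∀ x ∈ U, y * x = x * y) :
    nS (S : Subgroup G) U ⊓ D ≤ U := by
  by_contra hcon
  obtain ⟨T, hT⟩ : ∃ T : Subgroup G, T = nS (S : Subgroup G) U ⊓ D := ⟨_, rfl⟩
  rw [← hT] at hcon
  have hTs : IsSyl p T D := by rw [hT]; exact h.hs.inf_normal hDY hYD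
  obtain ⟨y₀, hy₀, hbad⟩ := h.bad
  apply hbad
  obtain ⟨n, hn, hny⟩ := hTs.frattini (hYD hy₀)
  have hnY : n * y₀ ∈ Subgroup.normalizer (U : Set G) := mul_mem (hDY hn) hy₀
  -- the larger subgroup
  have hTR : T ≤ nS (S : Subgroup G) U := by rw [hT]; exact inf_le_left
  have h1 : n * y₀ ∈ Subgroup.normalizer ((U ⊔ T : Subgroup G) : Set G) := by
    rw [mem_norm_iff, cj_sup, mem_norm_iff.1 hnY, mem_norm_iff.1 hny]
  have h2 : nS (S : Subgroup G) U ≤ Subgroup.normalizer ((U ⊔ T : Subgroup G) : Set G) := by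
    intro r hr
    have hrT : r ∈ Subgroup.normalizer (T : Set G) := by
      rw [hT]; exact norm_inf (Subgroup.le_normalizer hr) (hYD hr.2)
    rw [mem_norm_iff, cj_sup, mem_norm_iff.1 hr.2, mem_norm_iff.1 hrT]
  have h3 := h.nb' (A := U ⊔ T) le_sup_left (fun h4 => hcon (le_sup_right.trans h4))
    (sup_le h.hU (hTR.trans inf_le_left)) h2 _ h1
  have h4 : Ct (Subgroup.normalizer (Z : Set G)) U (n * y₀) := h3.mono le_sup_left
  -- `n` acts as an element of `T`
  have hCn : D ≤ Subgroup.normalizer ((D ⊓ Subgroup.centralizer (U : Set G) : Subgroup G) : Set G) := by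
    intro y hy
    refine norm_inf (Subgroup.le_normalizer hy) ?_
    rw [mem_norm_iff, cj_centralizer, mem_norm_iff.1 (hDY hy)]
  obtain ⟨c, hc, t, ht, hct⟩ := hTs.sup_eq (C := D ⊓ Subgroup.centralizer (U : Set G)) inf_le_left hCn (by
    intro y hy hyo
    refine ⟨hy, ?_⟩
    apply Subgroup.mem_centralizer_iff.2
    intro x hx
    exact (hD y hy hyo x hx).symm) n hn
  have htM : t ∈ Subgroup.normalizer (Z : Set G) := h.SZ (hTR ht).1
  have h5 : Ct (Subgroup.normalizer (Z : Set G)) U n := by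
    rw [hct]
    exact Ct.mul (hTR ht).2 (Ct.of_mem htM) (Ct.of_centralizer hc.2)
  have h6 := Ct.mul hnY h4 (Ct.inv (hDY hn) h5)
  rwa [inv_mul_cancel_left] at h6

theorem step1 (h : Cf S Z U) : ¬ Subgroup.normalizer (U : Set G) ≤ Subgroup.normalizer ((U ⊓ Z : Subgroup G) : Set G) := by
  intro hn
  by_cases hZU : Z ≤ U
  · obtain ⟨y₀, hy₀, hbad⟩ := h.bad
    apply hbad
    apply Ct.of_mem
    have := hn hy₀
    rwa [inf_eq_right.2 hZU] at this
  · -- an element of `Z` normalizing `U` outside `U`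
    have hUZ : U ≤ Subgroup.normalizer (Z : Set G) := h.hU.trans h.SZ
    have hp' : IsPGroup p ↥(U ⊔ Z) := isPGroup_sub S.2 (sup_le h.hU h.hZS)
    have hlt : U < U ⊔ Z := lt_of_le_of_ne le_sup_left (fun h1 => hZU (by rw [h1]; exact le_sup_right))
    obtain ⟨v, hv, hvU⟩ := SetLike.exists_of_lt (lt_inf_normalizer hp' hlt)
    obtain ⟨u, hu, z, hz, rfl⟩ := (mem_sup_right_norm hUZ).1 hv.1
    have hzN : z ∈ Subgroup.normalizer (U : Set G) := by
      have := mul_mem (Subgroup.le_normalizer (inv_mem hu)) hv.2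
      rwa [inv_mul_cancel_left] at this
    have hzU : z ∉ U := fun h1 => hvU (mul_mem hu h1)
    let D : Subgroup G :=
      { carrier := {y | y ∈ Subgroup.normalizer (U : Set G) ∧ Ce (U ⊓ Z) U y ∧ ∀ x ∈ U ⊓ Z, y * x = x * y}
        one_mem' := ⟨one_mem _, Ce.one, fun x _ => by rw [one_mul, mul_one]⟩
        mul_mem' := by
          rintro c d ⟨hc1, hc2, hc3⟩ ⟨hd1, hd2, hd3⟩
          refine ⟨mul_mem hc1 hd1, hc2.mul_Ce hd2 (hn hc1), fun x hx => ?_⟩
          rw [mul_assoc, hd3 x hx, ← mul_assoc, hc3 x hx, mul_assoc]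
        inv_mem' := by
          rintro c ⟨hc1, hc2, hc3⟩
          refine ⟨inv_mem hc1, fun x hx => ?_, fun x hx => ?_⟩
          · have h1 : c⁻¹ * x * c ∈ U := by
              have := (Subgroup.mem_normalizer_iff.1 (inv_mem hc1) x).1 hx
              rwa [inv_inv] at this
            have h2 := (U ⊓ Z).inv_mem (hc2 _ h1)
            have e : (c * (c⁻¹ * x * c) * c⁻¹ * (c⁻¹ * x * c)⁻¹)⁻¹ = c⁻¹ * x * c⁻¹⁻¹ * x⁻¹ := by group
            rwa [e] at h2
          · have := hc3 x hx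
            calc c⁻¹ * x = c⁻¹ * (x * c) * c⁻¹ := by group
              _ = x * c⁻¹ := by rw [← this]; group }
    have hDm : ∀ y, y ∈ D ↔ y ∈ Subgroup.normalizer (U : Set G) ∧ Ce (U ⊓ Z) U y ∧ ∀ x ∈ U ⊓ Z, y * x = x * y :=
      fun y => Iff.rfl
    have hYD : Subgroup.normalizer (U : Set G) ≤ Subgroup.normalizer (D : Set G) := by
      intro y hy
      have hy' := hn hy
      apply mem_norm_of_le
      rw [cj_le_iff]
      rintro c ⟨hc1, hc2, hc3⟩
      refine ⟨mul_mem (mul_mem hy hc1) (inv_mem hy), fun x hx => ?_, fun x hx => ?_⟩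
      · have h1 : y⁻¹ * x * y ∈ U := by
          have := (Subgroup.mem_normalizer_iff.1 (inv_mem hy) x).1 hx
          rwa [inv_inv] at this
        have h2 := (Subgroup.mem_normalizer_iff.1 hy' _).1 (hc2 _ h1)
        have e : y * (c * (y⁻¹ * x * y) * c⁻¹ * (y⁻¹ * x * y)⁻¹) * y⁻¹ =
          y * c * y⁻¹ * x * (y * c * y⁻¹)⁻¹ * x⁻¹ := by group
        rwa [e] at h2
      · have h1 : y⁻¹ * x * y ∈ U ⊓ Z := by
          have := (Subgroup.mem_normalizer_iff.1 (inv_mem hy') x).1 hx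
          rwa [inv_inv] at this
        have h2 := hc3 _ h1
        calc y * c * y⁻¹ * x = y * (c * (y⁻¹ * x * y)) * y⁻¹ := by group
          _ = x * (y * c * y⁻¹) := by rw [h2]; group
    have hzD : z ∈ D := by
      refine ⟨hzN, fun x hx => ?_, fun x hx => h.hZc z hz x hx.2⟩
      refine Subgroup.mem_inf.2 ⟨mul_mem ((Subgroup.mem_normalizer_iff.1 hzN x).1 hx) (inv_mem hx), ?_⟩
      have h1 := (Subgroup.mem_normalizer_iff.1 (hUZ hx) z⁻¹).1 (inv_mem hz)
      have e : z * x * z⁻¹ * x⁻¹ = z * (x * z⁻¹ * x⁻¹) := by group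
      rw [e]
      exact mul_mem hz h1
    have hno := h.noD D (fun y hy => hy.1) hYD (by
      rintro y ⟨hy1, hy2, hy3⟩ hyo
      exact fix_of_coprime h.Up inf_le_left (fun x hx => norm_inf (Subgroup.le_normalizer hx) (hUZ hx))
        hy1 (hn hy1) hyo hy2 hy3)
    exact hzU (hno ⟨⟨h.hZS hz, hzN⟩, hzD⟩)

theorem exists_B (h : Cf S Z U) : ∃ B ≤ U, Subgroup.normalizer (U : Set G) ≤ Subgroup.normalizer (B : Set G) ∧
    ¬ Subgroup.normalizer (U : Set G) ≤ Subgroup.normalizer ((B ⊓ Z : Subgroup G) : Set G) ∧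
    ∀ B' < B, Subgroup.normalizer (U : Set G) ≤ Subgroup.normalizer (B' : Set G) →
      Subgroup.normalizer (U : Set G) ≤ Subgroup.normalizer ((B' ⊓ Z : Subgroup G) : Set G) := by
  obtain ⟨B, ⟨h1, h2, h3⟩, h4⟩ := (wellFounded_lt (α := Subgroup G)).has_min
    {B : Subgroup G | B ≤ U ∧ Subgroup.normalizer (U : Set G) ≤ Subgroup.normalizer (B : Set G) ∧
    ¬ Subgroup.normalizer (U : Set G) ≤ Subgroup.normalizer ((B ⊓ Z : Subgroup G) : Set G)} ⟨U, le_rfl, le_rfl, h.step1⟩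
  refine ⟨B, h1, h2, h3, fun B' hB' hn => ?_⟩
  by_contra hcon
  exact h4 B' ⟨hB'.le.trans h1, hn, hcon⟩ hB'

theorem norm_comm {A B : Subgroup G} {y : G} (hA : y ∈ Subgroup.normalizer (A : Set G))
    (hB : y ∈ Subgroup.normalizer (B : Set G)) : y ∈ Subgroup.normalizer ((⁅A, B⁆ : Subgroup G) : Set G) := by
  rw [mem_norm_iff, cj_comm, mem_norm_iff.1 hA, mem_norm_iff.1 hB]

theorem B0 (h : Cf S Z U) {B : Subgroup G} (hBU : B ≤ U)
    (hYB : Subgroup.normalizer (U : Set G) ≤ Subgroup.normalizer (B : Set G))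
    (hbad : ¬ Subgroup.normalizer (U : Set G) ≤ Subgroup.normalizer ((B ⊓ Z : Subgroup G) : Set G))
    (hmin : ∀ B' < B, Subgroup.normalizer (U : Set G) ≤ Subgroup.normalizer (B' : Set G) →
      Subgroup.normalizer (U : Set G) ≤ Subgroup.normalizer ((B' ⊓ Z : Subgroup G) : Set G)) :
    ⁅B, U⁆ ≤ B ⊓ Z ∧ (∀ x ∈ ⁅B, U⁆, ∀ y ∈ B, x * y = y * x) := by
  have hUB : U ≤ Subgroup.normalizer (B : Set G) := Subgroup.le_normalizer.trans hYB
  have hUZ : U ≤ Subgroup.normalizer (Z : Set G) := h.hU.trans h.SZ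
  have hle : ⁅B, U⁆ ≤ B := by
    rw [Subgroup.commutator_le]
    intro b hb u hu
    have h1 := (Subgroup.mem_normalizer_iff.1 (hUB hu) b⁻¹).1 (inv_mem hb)
    have e : ⁅b, u⁆ = b * (u * b⁻¹ * u⁻¹) := by rw [commutatorElement_def]; group
    rw [e]
    exact mul_mem hb h1
  have hne : B ≠ ⊥ := by
    rintro rfl
    apply hbad
    intro y _
    rw [bot_inf_eq]
    apply mem_norm_of_le
    rw [cj_bot]
  have hlt : ⁅B, U⁆ < B := H11.commutator_lt_of_pgroup (isPGroup_sub h.Up hBU) h.Up hUB hne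
  have hYc : Subgroup.normalizer (U : Set G) ≤ Subgroup.normalizer ((⁅B, U⁆ : Subgroup G) : Set G) :=
    fun y hy => norm_comm (hYB hy) hy
  have hYcZ := hmin _ hlt hYc
  -- minimality for normalized subgroups containing `B ⊓ Z`
  have hcon : ∀ E : Subgroup G, E ≤ B → B ⊓ Z ≤ E →
      Subgroup.normalizer (U : Set G) ≤ Subgroup.normalizer (E : Set G) → E = B := by
    intro E h1 h2 h3
    by_contra h4
    apply hbad
    have h5 := hmin E (lt_of_le_of_ne h1 h4) h3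
    have h6 : E ⊓ Z = B ⊓ Z := le_antisymm (inf_le_inf_right _ h1) (le_inf h2 inf_le_right)
    rwa [h6] at h5
  have hBc : B ≤ Subgroup.normalizer ((⁅B, U⁆ ⊓ Z : Subgroup G) : Set G) :=
    (hBU.trans Subgroup.le_normalizer).trans hYcZ
  let E : Subgroup G :=
    { carrier := {x | x ∈ B ∧ ∀ u ∈ U, x * u * x⁻¹ * u⁻¹ ∈ (⁅B, U⁆ ⊓ Z : Subgroup G)}
      one_mem' := ⟨one_mem _, fun u _ => by simp [Subgroup.one_mem]⟩
      mul_mem' := by
        rintro x y ⟨hx, hx'⟩ ⟨hy, hy'⟩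
        refine ⟨mul_mem hx hy, fun u hu => ?_⟩
        have h1 := (Subgroup.mem_normalizer_iff.1 (hBc hx) _).1 (hy' u hu)
        have e : x * y * u * (x * y)⁻¹ * u⁻¹ = (x * (y * u * y⁻¹ * u⁻¹) * x⁻¹) * (x * u * x⁻¹ * u⁻¹) := by group
        rw [e]
        exact mul_mem h1 (hx' u hu)
      inv_mem' := by
        rintro x ⟨hx, hx'⟩
        refine ⟨inv_mem hx, fun u hu => ?_⟩
        have h1 := (Subgroup.mem_normalizer_iff.1 (hBc (inv_mem hx)) _).1 (inv_mem (hx' u hu))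
        have e : x⁻¹ * (x * u * x⁻¹ * u⁻¹)⁻¹ * x⁻¹⁻¹ = x⁻¹ * u * x⁻¹⁻¹ * u⁻¹ := by group
        rwa [e] at h1 }
  have hE : E = B := by
    apply hcon E (fun x hx => hx.1)
    · rintro x ⟨hx, hxZ⟩
      refine ⟨hx, fun u hu => ⟨?_, ?_⟩⟩
      · exact Subgroup.commutator_mem_commutator hx hu
      · have h1 := (Subgroup.mem_normalizer_iff.1 (hUZ hu) x⁻¹).1 (inv_mem hxZ)
        have e : x * u * x⁻¹ * u⁻¹ = x * (u * x⁻¹ * u⁻¹) := by group
        rw [e]
        exact mul_mem hxZ h1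
    · intro y hy
      apply mem_norm_of_le
      rw [cj_le_iff]
      rintro x ⟨hx, hx'⟩
      refine ⟨(Subgroup.mem_normalizer_iff.1 (hYB hy) x).1 hx, fun u hu => ?_⟩
      have h1 : y⁻¹ * u * y ∈ U := by
        have := (Subgroup.mem_normalizer_iff.1 (inv_mem hy) u).1 hu
        rwa [inv_inv] at this
      have h2 := (Subgroup.mem_normalizer_iff.1 (hYcZ hy) _).1 (hx' _ h1)
      have e : y * (x * (y⁻¹ * u * y) * x⁻¹ * (y⁻¹ * u * y)⁻¹) * y⁻¹ =
        y * x * y⁻¹ * u * (y * x * y⁻¹)⁻¹ * u⁻¹ := by group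
      rwa [e] at h2
  have hc : ⁅B, U⁆ ≤ B ⊓ Z := by
    rw [Subgroup.commutator_le]
    intro b hb u hu
    rw [← hE] at hb
    have h1 := hb.2 u hu
    exact ⟨hle h1.1, h1.2⟩
  refine ⟨hc, ?_⟩
  let E' : Subgroup G := B ⊓ Subgroup.centralizer ((⁅B, U⁆ : Subgroup G) : Set G)
  have hE' : E' = B := by
    apply hcon E' inf_le_left
    · rintro x ⟨hx, hxZ⟩
      refine ⟨hx, ?_⟩
      apply Subgroup.mem_centralizer_iff.2
      intro y hy
      exact h.hZc y (hc hy).2 x hxZ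
    · intro y hy
      refine norm_inf (hYB hy) ?_
      rw [mem_norm_iff, cj_centralizer, mem_norm_iff.1 (hYc hy)]
  intro x hx y hy
  rw [← hE'] at hy
  exact Subgroup.mem_centralizer_iff.1 hy.2 x hx

end Cf

end

end Cfsg.Agent.ZJFail
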