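import Cfsg.Agent.H33.Base
import Mathlib.FieldTheory.Finite.Basic
/-!
Coprime eigenvectors.
-/
set_option autoImplicit false
set_option linter.all false

namespace Cfsg.Agent.ZJFail

open Cfsg Cfsg.Agent.H33

theorem iterate_mod {A : Type*} [CommGroup A] (φ : A →* A) (A' : Subgroup A) (hA' : ∀ a ∈ A', φ a ∈ A')
    {lam : ℕ} (x : A) (hx : φ x * (x ^ lam)⁻¹ ∈ A') (i : ℕ) :
    (QuotientGroup.mk (φ^[i] x) : A ⧸ A') = (QuotientGroup.mk x : A ⧸ A') ^ (lam ^ i) := by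
  have key : ∀ a b : A, (QuotientGroup.mk a : A ⧸ A') = QuotientGroup.mk b →
      (QuotientGroup.mk (φ a) : A ⧸ A') = QuotientGroup.mk (φ b) := by
    intro a b h
    rw [QuotientGroup.eq] at h ⊢
    have := hA' _ h
    rwa [map_mul, map_inv] at this
  have h0 : (QuotientGroup.mk (φ x) : A ⧸ A') = (QuotientGroup.mk x : A ⧸ A') ^ lam := by
    rw [← QuotientGroup.mk_pow, QuotientGroup.eq]
    have := A'.inv_mem hx
    rwa [mul_inv_rev, inv_inv, mul_comm] at this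
  induction i with
  | zero => simp
  | succ i ih =>
    rw [Function.iterate_succ_apply', pow_succ]
    have h1 := key (φ^[i] x) (x ^ lam ^ i) (by rw [ih, QuotientGroup.mk_pow])
    rw [h1, map_pow, QuotientGroup.mk_pow, h0, ← pow_mul, mul_comm]

theorem eigen {A : Type*} [CommGroup A] (φ : A →* A) (A' : Subgroup A) (hA' : ∀ a ∈ A', φ a ∈ A') {m q lam : ℕ}
    (hφ : ∀ a, (φ^[m]) a = a) (hq : ∀ a : A, a ^ q = 1) (hlam : lam ^ m ≡ 1 [MOD q]) (x : A)
    (hx : φ x * (x ^ lam)⁻¹ ∈ A') : ∃ y, φ y = y ^ lam ∧ y * (x ^ m)⁻¹ ∈ A' := by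
  have hpow : ∀ (a : A) (k : ℕ), a ^ (lam ^ m * k) = a ^ k := by
    intro a k
    have h1 : lam ^ m * k ≡ 1 * k [MOD q] := hlam.mul_right k
    rw [one_mul] at h1
    exact pow_eq_pow_iff_modEq.2 (h1.of_dvd (orderOf_dvd_of_pow_eq_one (hq a)))
  refine ⟨∏ i ∈ Finset.range m, (φ^[i] x) ^ (lam ^ (m - i)), ?_, ?_⟩
  · let f : ℕ → A := fun i => (φ^[i] x) ^ (lam ^ (m + 1 - i))
    have h1 : φ (∏ i ∈ Finset.range m, (φ^[i] x) ^ (lam ^ (m - i))) = ∏ i ∈ Finset.range m, f (i + 1) := by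
      rw [map_prod]
      apply Finset.prod_congr rfl
      intro i _
      show φ ((φ^[i] x) ^ (lam ^ (m - i))) = (φ^[i + 1] x) ^ (lam ^ (m + 1 - (i + 1)))
      rw [map_pow, Function.iterate_succ_apply', Nat.add_sub_add_right]
    have h2 : (∏ i ∈ Finset.range m, (φ^[i] x) ^ (lam ^ (m - i))) ^ lam = ∏ i ∈ Finset.range m, f i := by
      rw [← Finset.prod_pow]
      apply Finset.prod_congr rfl
      intro i hi
      rw [Finset.mem_range] at hi
      show ((φ^[i] x) ^ (lam ^ (m - i))) ^ lam = (φ^[i] x) ^ (lam ^ (m + 1 - i))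
      rw [← pow_mul, ← pow_succ]
      congr 2
      omega
    have h3 := Finset.prod_range_succ f m
    rw [Finset.prod_range_succ'] at h3
    have h4 : f 0 = x ^ lam := by
      show x ^ (lam ^ (m + 1 - 0)) = _
      rw [Nat.sub_zero, pow_succ, hpow]
    have h5 : f m = x ^ lam := by
      show (φ^[m] x) ^ (lam ^ (m + 1 - m)) = _
      rw [hφ, Nat.add_sub_cancel_left, pow_one]
    rw [h4, h5] at h3
    rw [h1, h2]
    exact mul_right_cancel h3
  · have h1 : (QuotientGroup.mk (∏ i ∈ Finset.range m, (φ^[i] x) ^ (lam ^ (m - i))) : A ⧸ A') =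
        QuotientGroup.mk (x ^ m) := by
      show QuotientGroup.mk' A' _ = QuotientGroup.mk' A' _
      rw [map_prod]
      rw [Finset.prod_congr rfl (g := fun _ => QuotientGroup.mk' A' x) (by
        intro i hi
        rw [Finset.mem_range] at hi
        rw [map_pow]
        show (QuotientGroup.mk (φ^[i] x) : A ⧸ A') ^ (lam ^ (m - i)) = QuotientGroup.mk x
        rw [iterate_mod φ A' hA' x hx, ← pow_mul, ← pow_add]
        have : i + (m - i) = m := by omega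
        rw [this, ← QuotientGroup.mk_pow]
        have h2 := hpow x 1
        rw [mul_one, pow_one] at h2
        rw [h2])]
      rw [Finset.prod_const, Finset.card_range, map_pow]
    rw [QuotientGroup.eq] at h1
    have := A'.inv_mem h1
    rwa [mul_inv_rev, inv_inv, mul_comm] at this

theorem exists_eigen {G : Type*} [Group G] [Finite G] {p : ℕ} [hp : Fact p.Prime] {z z' : Subgroup G}
    (hz : IsPGroup p z) (hzc : ∀ x ∈ z, ∀ y ∈ z, x * y = y * x) (hz'z : z' ≤ z) {h : G}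
    (hh : h ∈ Subgroup.normalizer (z : Set G)) (hh' : h ∈ Subgroup.normalizer (z' : Set G)) {x : G} (hx : x ∈ z)
    (hx' : x ∉ z') (hxp : x ^ p ∈ z') {j : ℕ} (hj : ¬ p ∣ j) (hxj : h * x * h⁻¹ * (x ^ j)⁻¹ ∈ z') :
    ∃ y ∈ z, orderOf y = p ∧ ∃ h' ∈ Subgroup.zpowers h, ∃ j' : ℕ, (j' : ZMod p) = (j : ZMod p) ∧
      h' * y * h'⁻¹ = y ^ j' := by
  obtain ⟨a, n, hn, hN⟩ := Nat.exists_eq_pow_mul_and_not_dvd (orderOf_pos h).ne' p hp.out.ne_one
  obtain ⟨h₁, hh₁⟩ : ∃ h₁ : G, h₁ = h ^ p ^ a := ⟨_, rfl⟩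
  have hh₁n : h₁ ^ n = 1 := by
    rw [hh₁, ← pow_mul, ← hN, pow_orderOf_eq_one]
  obtain ⟨e, he⟩ := hz.exists_card_eq
  letI : CommGroup ↥z := { mul_comm := fun u v => Subtype.ext (hzc u u.2 v v.2) }
  have hcj : ∀ k : G, k ∈ Subgroup.normalizer (z : Set G) → ∀ u : ↥z, k * (u : G) * k⁻¹ ∈ z := fun k hk u =>
    (Subgroup.mem_normalizer_iff.1 hk _).1 u.2
  let Φ : ∀ k : G, k ∈ Subgroup.normalizer (z : Set G) → (↥z →* ↥z) := fun k hk =>
    { toFun := fun u => ⟨k * (u : G) * k⁻¹, hcj k hk u⟩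
      map_one' := Subtype.ext (by simp)
      map_mul' := fun u v => Subtype.ext (by
        show k * ((u : G) * v) * k⁻¹ = k * (u : G) * k⁻¹ * (k * (v : G) * k⁻¹)
        group) }
  have hΦ : ∀ k hk (u : ↥z), ((Φ k hk u : ↥z) : G) = k * (u : G) * k⁻¹ := fun k hk u => rfl
  have hΦi : ∀ k hk (i : ℕ) (u : ↥z), (((Φ k hk)^[i] u : ↥z) : G) = k ^ i * (u : G) * (k ^ i)⁻¹ := by
    intro k hk i
    induction i with
    | zero => intro u; simp
    | succ i ih =>
      intro u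
      rw [Function.iterate_succ_apply', hΦ k hk, ih, pow_succ']
      group
  have hh₁N : h₁ ∈ Subgroup.normalizer (z : Set G) := by rw [hh₁]; exact pow_mem hh _
  have hh₁N' : h₁ ∈ Subgroup.normalizer (z' : Set G) := by rw [hh₁]; exact pow_mem hh' _
  obtain ⟨A', hA'⟩ : ∃ A' : Subgroup ↥z, A' = z'.subgroupOf z := ⟨_, rfl⟩
  have hA'm : ∀ u : ↥z, u ∈ A' ↔ (u : G) ∈ z' := fun u => by rw [hA']; exact Subgroup.mem_subgroupOf
  obtain ⟨X, hX⟩ : ∃ X : ↥z, (X : G) = x := ⟨⟨x, hx⟩, rfl⟩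
  have hXp : X ^ p ∈ A' := by rw [hA'm]; show (X : G) ^ p ∈ z'; rw [hX]; exact hxp
  have hXn : X ∉ A' := by rw [hA'm, hX]; exact hx'
  obtain ⟨lam, hlam⟩ : ∃ lam : ℕ, lam = j ^ p ^ e := ⟨_, rfl⟩
  have hmodp : ∀ u v : ℕ, (u : ZMod p) = (v : ZMod p) → (QuotientGroup.mk X : ↥z ⧸ A') ^ u = QuotientGroup.mk X ^ v := by
    intro u v huv
    have h1 : u ≡ v [MOD p] := (ZMod.natCast_eq_natCast_iff u v p).1 huv
    refine pow_eq_pow_iff_modEq.2 (h1.of_dvd (orderOf_dvd_of_pow_eq_one ?_))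
    rw [← QuotientGroup.mk_pow]
    exact (QuotientGroup.eq_one_iff _).2 hXp
  have hfer : ∀ k : ℕ, ((j ^ p ^ k : ℕ) : ZMod p) = (j : ZMod p) := by
    intro k
    rw [Nat.cast_pow]
    exact ZMod.pow_card_pow _
  have hcop : Nat.Coprime j p := ((Nat.Prime.coprime_iff_not_dvd hp.out).2 hj).symm
  have hp1 : 1 ≤ p - 1 := by have := hp.out.two_le; omega
  obtain ⟨y₀, hy₀, hy₀x⟩ := eigen (Φ h₁ hh₁N) A' (by
      intro u hu
      rw [hA'm] at hu ⊢
      exact (Subgroup.mem_normalizer_iff.1 hh₁N' _).1 hu) (m := n * (p - 1)) (q := p ^ e) (lam := lam) (by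
      intro u
      apply Subtype.ext
      rw [hΦi h₁ hh₁N, pow_mul, hh₁n, one_pow, inv_one, one_mul, mul_one]) (by
      intro u
      rw [← he]
      exact pow_card_eq_one') (by
      have h1 : j ^ Nat.totient (p ^ (e + 1)) ≡ 1 [MOD p ^ (e + 1)] := Nat.ModEq.pow_totient (hcop.pow_right _)
      rw [Nat.totient_prime_pow_succ hp.out] at h1
      have h2 := (h1.pow n).of_dvd (Dvd.intro _ (pow_succ p e).symm)
      rw [one_pow, ← pow_mul] at h2
      rw [hlam, ← pow_mul]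
      have : p ^ e * (n * (p - 1)) = p ^ e * (p - 1) * n := by ring
      rw [this]
      exact h2) X (by
      have h1 : (QuotientGroup.mk ((Φ h hh)^[p ^ a] X) : ↥z ⧸ A') = QuotientGroup.mk X ^ (j ^ p ^ a) := by
        apply iterate_mod
        · intro u hu
          rw [hA'm] at hu ⊢
          exact (Subgroup.mem_normalizer_iff.1 hh' _).1 hu
        · rw [hA'm]
          show h * (X : G) * h⁻¹ * ((X : G) ^ j)⁻¹ ∈ z'
          rw [hX]; exact hxj
      rw [hmodp _ lam (by rw [hfer, hlam, hfer])] at h1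
      have h2 : (Φ h hh)^[p ^ a] X = Φ h₁ hh₁N X := by
        apply Subtype.ext
        rw [hΦi h hh, hΦ h₁ hh₁N, hh₁]
      rw [h2, ← QuotientGroup.mk_pow, QuotientGroup.eq] at h1
      have := A'.inv_mem h1
      rwa [mul_inv_rev, inv_inv, mul_comm] at this)
  have hy₀1 : y₀ ≠ 1 := by
    rintro rfl
    rw [one_mul, inv_mem_iff] at hy₀x
    apply hXn
    have h1 : Nat.Coprime (n * (p - 1)) p := by
      apply Nat.Coprime.mul_left
      · exact ((Nat.Prime.coprime_iff_not_dvd hp.out).2 hn).symm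
      · apply Nat.Coprime.symm
        rw [Nat.Prime.coprime_iff_not_dvd hp.out]
        intro h
        have := Nat.le_of_dvd (by omega) h
        omega
    have h2 : (QuotientGroup.mk X : ↥z ⧸ A') ^ (n * (p - 1)) = 1 := by
      rw [← QuotientGroup.mk_pow]; exact (QuotientGroup.eq_one_iff _).2 hy₀x
    have h3 : (QuotientGroup.mk X : ↥z ⧸ A') ^ p = 1 := by
      rw [← QuotientGroup.mk_pow]; exact (QuotientGroup.eq_one_iff _).2 hXp
    have h4 := Nat.dvd_gcd (orderOf_dvd_of_pow_eq_one h2) (orderOf_dvd_of_pow_eq_one h3)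
    rw [h1.gcd_eq_one, Nat.dvd_one, orderOf_eq_one_iff] at h4
    exact (QuotientGroup.eq_one_iff _).1 h4
  have hpd : p ∣ orderOf y₀ := by
    obtain ⟨k, hk⟩ := hz y₀
    obtain ⟨i, hi⟩ := (Nat.dvd_prime_pow hp.out).1 (orderOf_dvd_of_pow_eq_one hk)
    rw [hi.2]
    apply dvd_pow_self
    rintro rfl
    rw [pow_zero, orderOf_eq_one_iff] at hi
    exact hy₀1 hi.2
  obtain ⟨y, hy⟩ : ∃ y : ↥z, y = y₀ ^ (orderOf y₀ / p) := ⟨_, rfl⟩
  have hyo : orderOf y = p := by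
    rw [hy]; exact orderOf_pow_orderOf_div (orderOf_pos y₀).ne' hpd
  have hyφ : Φ h₁ hh₁N y = y ^ lam := by
    rw [hy, map_pow, hy₀, ← pow_mul, ← pow_mul, mul_comm]
  refine ⟨y, y.2, ?_, h₁, by rw [hh₁]; exact Subgroup.npow_mem_zpowers h _, lam, by rw [hlam, hfer],
    congrArg Subtype.val hyφ⟩
  rw [Subgroup.orderOf_coe]; exact hyo

end Cfsg.Agent.ZJFail
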