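import Cfsg.Agent.ZJFail.Quad
import Cfsg.Agent.ZJFail.ALEnd
import Cfsg.Agent.ZJFail.Eigen
/-!
The eigenvector in `B ∩ Z`.
-/
set_option autoImplicit false
set_option linter.all false

namespace Cfsg.Agent.ZJFail

open Cfsg Cfsg.Agent.H33 Cfsg.Agent.QdInv
open scoped commutatorElement

universe u

section

variable {G : Type u} [Group G] [Finite G] {p : ℕ} [hp : Fact p.Prime]

theorem EV.comap {X Y : Type u} [Group X] [Group Y] [Finite X] [Finite Y] (g : X →* Y) (hg : Function.Surjective g)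
    {z : Subgroup X} (hk : g.ker ≤ z) (h : EV p (z.map g)) : EV p z := by
  obtain ⟨h', hh, z', hz', hh', x', hx, hx', hxp, j, hj, hxj⟩ := h
  obtain ⟨h, rfl⟩ := hg h'
  obtain ⟨x, hxz, rfl⟩ := hx
  have hz : (z.map g).comap g = z := Subgroup.comap_map_eq_self hk
  refine ⟨h, ?_, z'.comap g, ?_, ?_, x, hxz, hx', ?_, j, hj, ?_⟩
  · have h1 : h ∈ (Subgroup.normalizer ((z.map g : Subgroup Y) : Set Y)).comap g := hh
    rw [Subgroup.comap_normalizer_eq_of_surjective _ hg, hz] at h1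
    exact h1
  · rw [← hz]; exact Subgroup.comap_mono hz'
  · have h1 : h ∈ (Subgroup.normalizer ((z' : Subgroup Y) : Set Y)).comap g := hh'
    rw [Subgroup.comap_normalizer_eq_of_surjective _ hg] at h1
    exact h1
  · show g (x ^ p) ∈ z'
    rw [map_pow]; exact hxp
  · show g _ ∈ z'
    rw [map_mul, map_mul, map_mul, map_inv, map_inv, map_pow]
    exact hxj

theorem EV.map_inj {X Y : Type u} [Group X] [Group Y] [Finite X] [Finite Y] (i : X →* Y) (hi : Function.Injective i)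
    {z : Subgroup X} (h : EV p z) : EV p (z.map i) := by
  obtain ⟨h, hh, z', hz', hh', x, hx, hx', hxp, j, hj, hxj⟩ := h
  refine ⟨i h, mem_norm_map i hh, z'.map i, Subgroup.map_mono hz', mem_norm_map i hh', i x, ⟨x, hx, rfl⟩, ?_,
    ⟨x ^ p, hxp, map_pow i x p⟩, j, hj, ⟨_, hxj, by simp only [map_mul, map_inv, map_pow]⟩⟩
  rintro ⟨y, hy, hyx⟩
  rw [hi hyx] at hy
  exact hx' hy

namespace Cf

variable {S : Sylow p G} {Z U : Subgroup G}

theorem exists_EV (hp2 : p ≠ 2) (h : Cf S Z U) {B : Subgroup G} (hBU : B ≤ U)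
    (hYB : Subgroup.normalizer (U : Set G) ≤ Subgroup.normalizer (B : Set G))
    (hbad : ¬ Subgroup.normalizer (U : Set G) ≤ Subgroup.normalizer ((B ⊓ Z : Subgroup G) : Set G))
    (hmin : ∀ B' < B, Subgroup.normalizer (U : Set G) ≤ Subgroup.normalizer (B' : Set G) →
      Subgroup.normalizer (U : Set G) ≤ Subgroup.normalizer ((B' ⊓ Z : Subgroup G) : Set G))
    [hn : (⁅B, U⁆ : Subgroup G).Normal] {a₀ : G} (ha₀R : a₀ ∈ nS (S : Subgroup G) U) (ha₀U : a₀ ∉ U)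
    (ha₀ : Qd (B.map (QuotientGroup.mk' (⁅B, U⁆ : Subgroup G))) (QuotientGroup.mk' (⁅B, U⁆ : Subgroup G) a₀)) :
    EV p (B ⊓ Z) := by
  obtain ⟨hB0, hB0c⟩ := h.B0 hBU hYB hbad hmin
  obtain ⟨Y, hY⟩ : ∃ Y : Subgroup G, Y = Subgroup.normalizer (U : Set G) := ⟨_, rfl⟩
  obtain ⟨R, hR⟩ : ∃ R : Subgroup G, R = nS (S : Subgroup G) U := ⟨_, rfl⟩
  have hs : IsSyl p R Y := by rw [hR, hY]; exact h.hs
  have hRY : R ≤ Y := hs.1
  have hUR : U ≤ R := by rw [hR]; exact h.UR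
  have hUY : U ≤ Y := hUR.trans hRY
  have hBY : B ≤ Y := hBU.trans hUY
  have hB0Y : (⁅B, U⁆ : Subgroup G) ≤ Y := (hB0.trans inf_le_left).trans hBY
  have hRS : R ≤ (S : Subgroup G) := by rw [hR]; exact inf_le_left
  rw [← hR] at ha₀R
  rw [← hY] at hYB hbad hmin
  haveI hn' : ((⁅B, U⁆ : Subgroup G).subgroupOf Y).Normal := inferInstance
  haveI hBn : (B.subgroupOf Y).Normal := by
    refine ⟨fun x hx t => ?_⟩
    rw [Subgroup.mem_subgroupOf] at hx ⊢
    exact (Subgroup.mem_normalizer_iff.1 (hYB t.2) _).1 hx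
  set g := QuotientGroup.mk' ((⁅B, U⁆ : Subgroup G).subgroupOf Y) with hg
  have hgs : Function.Surjective g := QuotientGroup.mk'_surjective _
  have hker : g.ker = (⁅B, U⁆ : Subgroup G).subgroupOf Y := QuotientGroup.ker_mk' _
  have hg1 : ∀ y : ↥Y, g y = 1 ↔ (y : G) ∈ (⁅B, U⁆ : Subgroup G) := by
    intro y
    rw [← MonoidHom.mem_ker, hker, Subgroup.mem_subgroupOf]
  obtain ⟨V, hV⟩ : ∃ V : Subgroup (↥Y ⧸ (⁅B, U⁆ : Subgroup G).subgroupOf Y), V = (B.subgroupOf Y).map g := ⟨_, rfl⟩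
  haveI hVn : V.Normal := by rw [hV]; exact hBn.map g hgs
  obtain ⟨z, hz⟩ : ∃ z : Subgroup ↥Y, z = (B ⊓ Z).subgroupOf Y := ⟨_, rfl⟩
  have hzm : z.map Y.subtype = B ⊓ Z := by
    rw [hz, Subgroup.subgroupOf_map_subtype, inf_eq_left]
    exact inf_le_left.trans hBY
  have hkz : g.ker ≤ z := by
    rw [hker, hz]
    exact Subgroup.comap_mono hB0
  have hBp : IsPGroup p B := isPGroup_sub h.Up hBU
  have hcomm : ∀ b ∈ B, ∀ u ∈ U, b * u * b⁻¹ * u⁻¹ ∈ (⁅B, U⁆ : Subgroup G) := fun b hb u hu =>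
    Subgroup.commutator_mem_commutator hb hu
  -- commuting in the quotient
  have hgc : ∀ x y : ↥Y, (x : G) * y * (x : G)⁻¹ * (y : G)⁻¹ ∈ (⁅B, U⁆ : Subgroup G) → g x * g y = g y * g x := by
    intro x y hxy
    have h1 : g (x * y * x⁻¹ * y⁻¹) = 1 := (hg1 _).2 hxy
    simp only [map_mul, map_inv] at h1
    have h2 := mul_inv_eq_one.1 h1
    calc g x * g y = (g x * g y * (g x)⁻¹) * g x := by group
      _ = g y * g x := by rw [h2]
  have hkey : EV p (z.map g) := by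
    refine eigen_pair hp2 ((hs.toSylow).mapSurjective hgs) V (z.map g) ?_ ?_ ?_ ?_ ?_
    · rw [hV]
      exact (hBp.comap_of_injective Y.subtype Y.subtype_injective).map g
    · rw [hV]
      rintro _ ⟨x, hx, rfl⟩ _ ⟨y, hy, rfl⟩
      exact hgc x y (hcomm _ hx _ (hBU hy))
    · rw [hV, hz]
      exact Subgroup.map_mono (Subgroup.comap_mono inf_le_left)
    · intro htop
      apply hbad
      intro y hy
      have h1 : g ⟨y, hy⟩ ∈ Subgroup.normalizer ((z.map g : Subgroup _) : Set (↥Y ⧸ (⁅B, U⁆ : Subgroup G).subgroupOf Y)) := by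
        rw [htop]; trivial
      have h2 : (⟨y, hy⟩ : ↥Y) ∈ (Subgroup.normalizer ((z.map g : Subgroup _) : Set (↥Y ⧸ (⁅B, U⁆ : Subgroup G).subgroupOf Y))).comap g := h1
      rw [Subgroup.comap_normalizer_eq_of_surjective _ hgs, Subgroup.comap_map_eq_self hkz] at h2
      have h3 := mem_norm_map Y.subtype h2
      rwa [hzm] at h3
    · rw [Sylow.coe_mapSurjective hgs, hs.toSylow_coe]
      obtain ⟨Λ, hΛ⟩ : ∃ Λ : Set (↥Y ⧸ (⁅B, U⁆ : Subgroup G).subgroupOf Y), Λ = Lam p V := ⟨_, rfl⟩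
      rw [← hΛ]
      have hΛc : ∀ x g : ↥Y ⧸ (⁅B, U⁆ : Subgroup G).subgroupOf Y, x ∈ Λ → g * x * g⁻¹ ∈ Λ := by
        intro x g hx
        rw [hΛ] at hx ⊢
        exact Lam_conj x g hx
      obtain ⟨W', hW'⟩ : ∃ W' : Subgroup (↥Y ⧸ (⁅B, U⁆ : Subgroup G).subgroupOf Y), W' =
        Subgroup.closure (Λ ∩ ((R.subgroupOf Y).map g : Subgroup _)) := ⟨_, rfl⟩
      have hRW' : (R.subgroupOf Y).map g ≤ Subgroup.normalizer (W' : Set _) := by
        rw [hW']
        exact Subgroup.le_normalizer.trans (closure_inter_norm Λ hΛc _)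
      have hW'R : W' ≤ (R.subgroupOf Y).map g := by
        rw [hW', Subgroup.closure_le]; exact Set.inter_subset_right
      intro n' hn''
      obtain ⟨n, rfl⟩ := hgs n'
      rw [← hW'] at hn''
      obtain ⟨W, hW⟩ : ∃ W : Subgroup ↥Y, W = W'.comap g := ⟨_, rfl⟩
      have hnW : ∀ y : ↥Y, g y ∈ Subgroup.normalizer (W' : Set (↥Y ⧸ (⁅B, U⁆ : Subgroup G).subgroupOf Y)) →
          y ∈ Subgroup.normalizer (W : Set ↥Y) := by
        intro y hy
        have h1 : y ∈ (Subgroup.normalizer (W' : Set (↥Y ⧸ (⁅B, U⁆ : Subgroup G).subgroupOf Y))).comap g := hy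
        rw [Subgroup.comap_normalizer_eq_of_surjective _ hgs] at h1
        rw [hW]; exact h1
      have hWR : W ≤ R.subgroupOf Y := by
        have h1 : ((R.subgroupOf Y).map g).comap g = R.subgroupOf Y := by
          apply Subgroup.comap_map_eq_self
          rw [hker]
          exact Subgroup.comap_mono ((hB0.trans inf_le_left).trans (hBU.trans hUR))
        rw [hW, ← h1]
        exact Subgroup.comap_mono hW'R
      -- membership in `Λ`
      have hΛm : ∀ y : ↥Y, (y : G) ∈ R → H11.Quad (g y) V → y ∈ W := by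
        intro y hy hQ
        rw [hW]
        show g y ∈ W'
        rw [hW']
        apply Subgroup.subset_closure
        refine ⟨?_, ⟨y, hy, rfl⟩⟩
        rw [hΛ]
        refine ⟨?_, hQ⟩
        obtain ⟨k, hk⟩ := S.2 ⟨(y : G), hRS hy⟩
        have hk' : (y : G) ^ p ^ k = 1 := congrArg Subtype.val hk
        refine ⟨k, ?_⟩
        rw [← map_pow, hg1]
        show (y : G) ^ p ^ k ∈ _
        rw [hk']; exact one_mem _
      have hUW : U ≤ W.map Y.subtype := by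
        intro u hu
        refine ⟨⟨u, hUY hu⟩, hΛm _ (hUR hu) ?_, rfl⟩
        rw [hV]
        rintro _ ⟨b, hb, rfl⟩
        have h1 := hgc b ⟨u, hUY hu⟩ (hcomm _ hb _ hu)
        have h2 : g ⟨u, hUY hu⟩ * g b * (g ⟨u, hUY hu⟩)⁻¹ * (g b)⁻¹ = 1 := by
          rw [← h1]; group
        rw [h2]
        exact Commute.one_right _
      have ha₀W : a₀ ∈ W.map Y.subtype := by
        refine ⟨⟨a₀, hRY ha₀R⟩, hΛm _ ha₀R ?_, rfl⟩
        rw [hV]
        rintro _ ⟨b, hb, rfl⟩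
        have h1 := ha₀ _ ⟨(b : G), hb, rfl⟩
        have h2 : QuotientGroup.mk' (⁅B, U⁆ : Subgroup G) (a₀ * (a₀ * b * a₀⁻¹ * (b : G)⁻¹)) =
            QuotientGroup.mk' (⁅B, U⁆ : Subgroup G) ((a₀ * b * a₀⁻¹ * (b : G)⁻¹) * a₀) := by
          simp only [map_mul, map_inv]; exact h1
        have h3 : (a₀ * (a₀ * b * a₀⁻¹ * (b : G)⁻¹))⁻¹ * ((a₀ * b * a₀⁻¹ * (b : G)⁻¹) * a₀) ∈ (⁅B, U⁆ : Subgroup G) :=
          QuotientGroup.eq.1 h2
        obtain ⟨a, ha⟩ : ∃ a : ↥Y, (a : G) = a₀ := ⟨⟨a₀, hRY ha₀R⟩, rfl⟩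
        have ha' : (⟨a₀, hRY ha₀R⟩ : ↥Y) = a := Subtype.ext ha.symm
        rw [ha']
        have h4 : g ((a * (a * b * a⁻¹ * b⁻¹))⁻¹ * ((a * b * a⁻¹ * b⁻¹) * a)) = 1 := by
          rw [hg1]
          show ((a : G) * (a * b * (a : G)⁻¹ * (b : G)⁻¹))⁻¹ * (((a : G) * b * (a : G)⁻¹ * (b : G)⁻¹) * a) ∈ _
          rw [ha]; exact h3
        rw [map_mul, map_inv, inv_mul_eq_one] at h4
        simp only [map_mul, map_inv] at h4
        exact h4
      have hWm : W.map Y.subtype ≤ R := by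
        rintro _ ⟨y, hy, rfl⟩
        exact hWR hy
      have hct := h.nb' hUW (fun h1 => ha₀U (h1 ha₀W)) (hWm.trans hRS) (by
        intro r hr
        rw [← hR] at hr
        have h1 : (⟨r, hRY hr⟩ : ↥Y) ∈ Subgroup.normalizer (W : Set ↥Y) := hnW _ (hRW' ⟨⟨r, hRY hr⟩, hr, rfl⟩)
        exact mem_norm_map Y.subtype h1)
      have hnn := mem_norm_map Y.subtype (hnW n hn'')
      have h5 := ct_norm (hBU.trans hUW) (hYB n.2) (hct _ hnn)
      -- transfer
      have h6 : n ∈ Subgroup.normalizer (z : Set ↥Y) := by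
        apply mem_norm_of_le
        rw [cj_le_iff]
        intro x hx
        rw [hz, Subgroup.mem_subgroupOf] at hx ⊢
        exact (Subgroup.mem_normalizer_iff.1 h5 _).1 hx
      exact mem_norm_map g h6
  have h1 := EV.map_inj Y.subtype Y.subtype_injective (EV.comap g hgs hkz hkey)
  rwa [hzm] at h1

end Cf

end

end Cfsg.Agent.ZJFail
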