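import Cfsg.Agent.ZJFail.FRel
/-!
From the relational form to `Involves`.
-/
set_option autoImplicit false
set_option linter.all false

namespace Cfsg.Agent.ZJFail

open Cfsg Cfsg.Agent.H33 Matrix

universe u

variable {p : ℕ} [hp : Fact p.Prime]

theorem uni_dg_val (a b : ZMod p) (h : a * b = 1) (i α β : ZMod p) :
    (uni p i α β * dg p a b h).1 = !![a, i * b, α; 0, b, β; 0, 0, 1] := by
  show (uni p i α β).1 * (dg p a b h).1 = _
  rw [uni_val, dg_val]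
  ext x y
  fin_cases x <;> fin_cases y <;> simp [Matrix.mul_apply, Fin.sum_univ_three]

theorem exists_tor (M : SL3 p) (h10 : M.1 1 0 = 0) (h20 : M.1 2 0 = 0) (h21 : M.1 2 1 = 0) (h22 : M.1 2 2 = 1) :
    ∃ (ν : (ZMod p)ˣ) (i α β : ZMod p), M = uni p i α β * tor p ν := by
  have hdet : M.1 0 0 * M.1 1 1 = 1 := by
    have h := M.2
    rw [Matrix.det_fin_three] at h
    rw [h10, h20, h21, h22] at h
    linear_combination h
  let ν : (ZMod p)ˣ := ⟨M.1 0 0, M.1 1 1, hdet, by rw [mul_comm]; exact hdet⟩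
  refine ⟨ν, M.1 0 1 * M.1 0 0, M.1 0 2, M.1 1 2, ?_⟩
  apply Subtype.ext
  show M.1 = (uni p _ _ _ * dg p (M.1 0 0) (M.1 1 1) hdet).1
  rw [uni_dg_val, mul_assoc, hdet, mul_one]
  ext x y
  fin_cases x <;> fin_cases y
  · rfl
  · rfl
  · rfl
  · exact h10
  · rfl
  · rfl
  · exact h20
  · exact h21
  · exact h22

theorem uni_tor_mem (ν : (ZMod p)ˣ) (i α β : ZMod p) :
    (uni p i α β * tor p ν).1 1 0 = 0 ∧ (uni p i α β * tor p ν).1 2 0 = 0 ∧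
    (uni p i α β * tor p ν).1 2 1 = 0 ∧ (uni p i α β * tor p ν).1 2 2 = 1 := by
  have : (uni p i α β * tor p ν).1 = !![(ν : ZMod p), i * ((ν⁻¹ : (ZMod p)ˣ) : ZMod p), α; 0, ((ν⁻¹ : (ZMod p)ˣ) : ZMod p), β; 0, 0, 1] :=
    uni_dg_val _ _ (Units.mul_inv ν) i α β
  rw [this]
  exact ⟨rfl, rfl, rfl, rfl⟩

theorem FX.involves {X : Type u} [Group X] [Finite X] (h : FX p X) : Involves ↥(fOver (ZMod p)) X := by
  obtain ⟨Γ, h, μ, hμ, -, -, hΓp, hΓ1, hΓs, hΓu, hc⟩ := h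
  obtain ⟨a, n, hn, hN⟩ := Nat.exists_eq_pow_mul_and_not_dvd (orderOf_pos h).ne' p hp.out.ne_one
  obtain ⟨t, ht⟩ : ∃ t : X × SL3 p, t = (h, tor p μ) ^ p ^ a := ⟨_, rfl⟩
  have ht1 : t.1 = h ^ p ^ a := by rw [ht]; rfl
  have ht2 : t.2 = tor p μ := by
    rw [ht]
    show tor p μ ^ p ^ a = tor p μ
    rw [← map_pow]
    congr 1
    apply Units.ext
    rw [Units.val_pow_eq_pow_val]
    exact ZMod.pow_card_pow _
  have htn : t.1 ^ n = 1 := by
    rw [ht1, ← pow_mul, ← hN, pow_orderOf_eq_one]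
  have ht0 : (h, tor p μ) ∈ Subgroup.normalizer (Γ : Set (X × SL3 p)) := by
    apply mem_norm_of_le
    rw [cj_le_iff]
    exact hc
  have htN : t ∈ Subgroup.normalizer (Γ : Set (X × SL3 p)) := by
    rw [ht]; exact pow_mem ht0 _
  obtain ⟨Δ, hΔ⟩ : ∃ Δ : Subgroup (X × SL3 p), Δ = Γ ⊔ Subgroup.zpowers t := ⟨_, rfl⟩
  have hΔm : ∀ g, g ∈ Δ ↔ ∃ c ∈ Γ, ∃ i : ℤ, g = c * t ^ i := by
    intro g
    rw [hΔ, mem_sup_left_norm (Subgroup.zpowers_le.2 htN)]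
    constructor
    · rintro ⟨c, hc, _, ⟨i, rfl⟩, rfl⟩
      exact ⟨c, hc, i, rfl⟩
    · rintro ⟨c, hc, i, rfl⟩
      exact ⟨c, hc, _, ⟨i, rfl⟩, rfl⟩
  have ht2i : ∀ i : ℤ, (t ^ i).2 = tor p (μ ^ i) := by
    intro i
    rw [map_zpow, ← ht2]; rfl
  have ht1i : ∀ i : ℤ, (t ^ i).1 = t.1 ^ i := fun i => rfl
  have hinj : ∀ g ∈ Δ, g.1 = 1 → g.2 = 1 := by
    intro g hg h1
    obtain ⟨c, hcΓ, i, rfl⟩ := (hΔm g).1 hg
    have h2 : c.1 * t.1 ^ i = 1 := h1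
    have hc1 : c.1 = 1 := by
      obtain ⟨k, hk⟩ := hΓp c hcΓ
      have h3 : c.1 = (t.1 ^ i)⁻¹ := eq_inv_of_mul_eq_one_left h2
      have h4 : c.1 ^ n = 1 := by
        rw [h3, inv_pow, ← zpow_natCast, ← _root_.zpow_mul, mul_comm, _root_.zpow_mul, zpow_natCast, htn, _root_.one_zpow, inv_one]
      have h5 : orderOf c.1 = 1 := by
        have hcop : Nat.Coprime (p ^ k) n := Nat.Coprime.pow_left _ ((Nat.Prime.coprime_iff_not_dvd hp.out).2 hn)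
        have := Nat.dvd_gcd (orderOf_dvd_of_pow_eq_one hk) (orderOf_dvd_of_pow_eq_one h4)
        rwa [hcop.gcd_eq_one, Nat.dvd_one] at this
      exact orderOf_eq_one_iff.1 h5
    rw [hc1, one_mul] at h2
    have hμi : μ ^ i = 1 := by
      obtain ⟨x, hx⟩ := hΓs 0 1 0
      have h3 := (Subgroup.mem_normalizer_iff.1 (zpow_mem htN i) _).1 hx
      have h4 := Γ.mul_mem h3 (Γ.inv_mem hx)
      have h5 := hΓ1 _ h4 (by
        show t.1 ^ i * x * (t.1 ^ i)⁻¹ * x⁻¹ = 1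
        rw [h2]; group)
      have h6 : (t ^ i).2 * uni p 0 1 0 * (t ^ i).2⁻¹ * (uni p 0 1 0)⁻¹ = 1 := h5
      rw [ht2i, tor_conj, mul_inv_eq_one] at h6
      have h7 := (uni_inj p h6).2.1
      rw [mul_one] at h7
      exact Units.ext h7
    have hc2 := hΓ1 c hcΓ hc1
    show c.2 * (t ^ i).2 = 1
    rw [hc2, ht2i, hμi, map_one, one_mul]
  have hmem : ∀ g ∈ Δ, g.2 ∈ fOver (ZMod p) := by
    intro g hg
    obtain ⟨c, hcΓ, i, rfl⟩ := (hΔm g).1 hg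
    obtain ⟨j, α, β, hu⟩ := hΓu c hcΓ
    apply Subgroup.subset_closure
    have : (c * t ^ i).2 = uni p j α β * tor p (μ ^ i) := by
      show c.2 * (t ^ i).2 = _
      rw [hu, ht2i]
    show (c * t ^ i).2.1 1 0 = 0 ∧ (c * t ^ i).2.1 2 0 = 0 ∧ (c * t ^ i).2.1 2 1 = 0 ∧ (c * t ^ i).2.1 2 2 = 1
    rw [this]
    exact uni_tor_mem _ _ _ _
  have hsur : ∀ M ∈ fOver (ZMod p), ∃ g ∈ Δ, g.2 = M := by
    intro M hM
    have hle : fOver (ZMod p) ≤ Δ.map (MonoidHom.snd _ _) := by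
      unfold fOver
      rw [Subgroup.closure_le]
      rintro N ⟨h10, h20, h21, h22⟩
      obtain ⟨ν, i, α, β, hN⟩ := exists_tor N h10 h20 h21 h22
      have hν : ν ∈ Subgroup.zpowers μ := by
        have hcard : Nat.card (Subgroup.zpowers μ) = Nat.card (ZMod p)ˣ := by
          rw [Nat.card_zpowers, hμ, Nat.card_eq_fintype_card, ZMod.card_units]
        rw [Subgroup.eq_top_of_card_eq _ hcard]; trivial
      obtain ⟨m, hm⟩ := hν
      simp only at hm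
      obtain ⟨x, hx⟩ := hΓs i α β
      refine ⟨(x, uni p i α β) * t ^ m, (hΔm _).2 ⟨_, hx, m, rfl⟩, ?_⟩
      show uni p i α β * (t ^ m).2 = N
      rw [ht2i, hm, hN]
    obtain ⟨g, hg, hgM⟩ := hle hM
    exact ⟨g, hg, hgM⟩
  let j : ↥Δ →* X := (MonoidHom.fst _ _).comp Δ.subtype
  have hj : Function.Injective j := by
    rw [injective_iff_map_eq_one]
    intro g hg
    apply Subtype.ext
    have h1 : (g : X × SL3 p).1 = 1 := hg
    exact Prod.ext h1 (hinj _ g.2 h1)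
  let ψ : ↥Δ →* ↥(fOver (ZMod p)) := ((MonoidHom.snd _ _).comp Δ.subtype).codRestrict _ (fun g => hmem g.1 g.2)
  have hψ : Function.Surjective ψ := by
    rintro ⟨M, hM⟩
    obtain ⟨g, hg, hgM⟩ := hsur M hM
    exact ⟨⟨g, hg⟩, Subtype.ext hgM⟩
  exact H46.involves_of_injective (H46.involves_of_surjective ψ hψ) j hj

end Cfsg.Agent.ZJFail
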