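import Cfsg.Agent.QdInv.Climb
import Cfsg.Agent.H46.Involves
import Cfsg.Prelude.Def_LocalEven
/-!
The group `F(p)` as a section, in terms of relations.
-/
set_option autoImplicit false
set_option linter.all false

namespace Cfsg.Agent.ZJFail

open Cfsg Cfsg.Agent.H33 Matrix

universe u

abbrev SL3 (p : ℕ) := Matrix.SpecialLinearGroup (Fin 3) (ZMod p)

section
variable (p : ℕ) [hp : Fact p.Prime]

/-- unitriangular matrix -/
def uni (i α β : ZMod p) : SL3 p := ⟨!![1, i, α; 0, 1, β; 0, 0, 1], by simp [Matrix.det_fin_three]⟩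

theorem uni_val (i α β : ZMod p) : (uni p i α β).1 = !![1, i, α; 0, 1, β; 0, 0, 1] := rfl

/-- diagonal matrix -/
def dg (a b : ZMod p) (h : a * b = 1) : SL3 p := ⟨!![a, 0, 0; 0, b, 0; 0, 0, 1], by
  rw [Matrix.det_fin_three]; simp [h]⟩

theorem dg_val (a b : ZMod p) (h : a * b = 1) : (dg p a b h).1 = !![a, 0, 0; 0, b, 0; 0, 0, 1] := rfl

theorem dg_mul (a b : ZMod p) (h : a * b = 1) (a' b' : ZMod p) (h' : a' * b' = 1) (h'' : a * a' * (b * b') = 1) :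
    dg p a b h * dg p a' b' h' = dg p (a * a') (b * b') h'' := by
  apply Subtype.ext
  show (dg p a b h).1 * (dg p a' b' h').1 = _
  rw [dg_val, dg_val, dg_val]
  ext i j
  fin_cases i <;> fin_cases j <;> simp [Matrix.mul_apply, Fin.sum_univ_three]

theorem dg_congr {a b a' b' : ZMod p} (h : a * b = 1) (h' : a' * b' = 1) (e1 : a = a') (e2 : b = b') :
    dg p a b h = dg p a' b' h' := by
  subst e1 e2; rfl

theorem dg_one (h : (1 : ZMod p) * 1 = 1) : dg p 1 1 h = 1 := by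
  apply Subtype.ext
  rw [dg_val]
  ext i j
  fin_cases i <;> fin_cases j <;> simp

/-- the torus -/
def tor : (ZMod p)ˣ →* SL3 p where
  toFun μ := dg p μ ((μ⁻¹ : (ZMod p)ˣ) : ZMod p) (Units.mul_inv μ)
  map_one' := by
    rw [← dg_one p (mul_one 1)]
    exact dg_congr p _ _ rfl (by rw [inv_one]; rfl)
  map_mul' a b := by
    have h : (a : ZMod p) * b * (((a⁻¹ : (ZMod p)ˣ) : ZMod p) * ((b⁻¹ : (ZMod p)ˣ) : ZMod p)) = 1 := by
      rw [← Units.val_mul, ← Units.val_mul, ← mul_inv, Units.mul_inv]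
    rw [dg_mul p _ _ _ _ _ _ h]
    refine dg_congr p _ _ rfl ?_
    rw [mul_inv]; rfl

theorem tor_val (μ : (ZMod p)ˣ) :
    (tor p μ).1 = !![(μ : ZMod p), 0, 0; 0, ((μ⁻¹ : (ZMod p)ˣ) : ZMod p), 0; 0, 0, 1] := rfl

theorem dg_conj (a b : ZMod p) (h : a * b = 1) (i α β : ZMod p) :
    dg p a b h * uni p i α β * (dg p a b h)⁻¹ = uni p (a * a * i) (a * α) (b * β) := by
  rw [mul_inv_eq_iff_eq_mul]
  apply Subtype.ext
  show (dg p a b h).1 * (uni p i α β).1 = (uni p _ _ _).1 * (dg p a b h).1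
  rw [uni_val, uni_val, dg_val]
  ext x y
  fin_cases x <;> fin_cases y <;> simp [Matrix.mul_apply, Fin.sum_univ_three]
  linear_combination (- a * i) * h

theorem uni_mul (i α β i' α' β' : ZMod p) :
    uni p i α β * uni p i' α' β' = uni p (i + i') (α + i * β' + α') (β + β') := by
  apply Subtype.ext
  show (uni p i α β).1 * (uni p i' α' β').1 = _
  rw [uni_val, uni_val, uni_val]
  ext a b
  fin_cases a <;> fin_cases b <;> simp [Matrix.mul_apply, Fin.sum_univ_three] <;> ring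

theorem uni_zero : uni p 0 0 0 = 1 := by
  apply Subtype.ext
  rw [uni_val]
  ext a b
  fin_cases a <;> fin_cases b <;> simp

theorem uni_inv (i α β : ZMod p) : (uni p i α β)⁻¹ = uni p (-i) (i * β - α) (-β) := by
  rw [inv_eq_iff_mul_eq_one, uni_mul, ← uni_zero]
  congr 1 <;> ring

theorem uni_inj {i α β i' α' β' : ZMod p} (h : uni p i α β = uni p i' α' β') : i = i' ∧ α = α' ∧ β = β' := by
  have h1 := congrArg Subtype.val h
  rw [uni_val, uni_val] at h1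
  have h2 := congrFun (congrFun h1 0) 1
  have h3 := congrFun (congrFun h1 0) 2
  have h4 := congrFun (congrFun h1 1) 2
  simp at h2 h3 h4
  exact ⟨h2, h3, h4⟩

theorem tor_conj (μ : (ZMod p)ˣ) (i α β : ZMod p) :
    tor p μ * uni p i α β * (tor p μ)⁻¹ =
      uni p ((μ : ZMod p) * μ * i) ((μ : ZMod p) * α) (((μ⁻¹ : (ZMod p)ˣ) : ZMod p) * β) :=
  dg_conj p _ _ (Units.mul_inv μ) i α β

/-- `F(p)` is a section of the subgroup `H`, in relational form. -/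
def FIn {X : Type*} [Group X] (H : Subgroup X) : Prop :=
  ∃ (Γ : Subgroup (X × SL3 p)) (h : X) (μ : (ZMod p)ˣ), orderOf μ = p - 1 ∧ h ∈ H ∧ (∀ g ∈ Γ, g.1 ∈ H) ∧
    (∀ g ∈ Γ, ∃ k, g.1 ^ p ^ k = 1) ∧ (∀ g ∈ Γ, g.1 = 1 → g.2 = 1) ∧
    (∀ i α β, ∃ x, (x, uni p i α β) ∈ Γ) ∧ (∀ g ∈ Γ, ∃ i α β, g.2 = uni p i α β) ∧
    ∀ g ∈ Γ, (h * g.1 * h⁻¹, tor p μ * g.2 * (tor p μ)⁻¹) ∈ Γ

def FX (X : Type*) [Group X] : Prop := FIn p (⊤ : Subgroup X)

end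

variable {p : ℕ} [hp : Fact p.Prime]

theorem FIn.toSub {X : Type*} [Group X] {H : Subgroup X} (h : FIn p H) : FX p ↥H := by
  obtain ⟨Γ, h, μ, hμ, hh, hΓH, hΓp, hΓ1, hΓs, hΓu, hc⟩ := h
  refine ⟨Γ.comap (H.subtype.prodMap (MonoidHom.id _)), ⟨h, hh⟩, μ, hμ, trivial, fun _ _ => trivial, ?_, ?_, ?_, ?_, ?_⟩
  · intro g hg
    obtain ⟨k, hk⟩ := hΓp _ hg
    exact ⟨k, Subtype.ext hk⟩
  · intro g hg h1
    exact hΓ1 _ hg (congrArg Subtype.val h1)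
  · intro i α β
    obtain ⟨x, hx⟩ := hΓs i α β
    exact ⟨⟨x, hΓH _ hx⟩, hx⟩
  · intro g hg
    exact hΓu _ hg
  · intro g hg
    exact hc _ hg

theorem FX.inj {X Y : Type*} [Group X] [Group Y] (f : X →* Y) (hf : Function.Injective f) (h : FX p X) :
    FX p Y := by
  obtain ⟨Γ, h, μ, hμ, -, -, hΓp, hΓ1, hΓs, hΓu, hc⟩ := h
  refine ⟨Γ.map (f.prodMap (MonoidHom.id _)), f h, μ, hμ, trivial, fun _ _ => trivial, ?_, ?_, ?_, ?_, ?_⟩
  · rintro _ ⟨g, hg, rfl⟩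
    obtain ⟨k, hk⟩ := hΓp _ hg
    refine ⟨k, ?_⟩
    show f g.1 ^ p ^ k = 1
    rw [← map_pow, hk, map_one]
  · rintro _ ⟨g, hg, rfl⟩ h1
    refine hΓ1 _ hg (hf ?_)
    rw [map_one]; exact h1
  · intro i α β
    obtain ⟨x, hx⟩ := hΓs i α β
    exact ⟨f x, _, hx, rfl⟩
  · rintro _ ⟨g, hg, rfl⟩
    exact hΓu _ hg
  · rintro _ ⟨g, hg, rfl⟩
    refine ⟨_, hc _ hg, ?_⟩
    show (f (h * g.1 * h⁻¹), _) = (f h * f g.1 * (f h)⁻¹, _)
    rw [map_mul, map_mul, map_inv]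
    rfl

theorem FX.quot {X : Type*} [Group X] [Finite X] (N : Subgroup X) [hN : N.Normal] (h : FX p (X ⧸ N)) : FX p X := by
  obtain ⟨Γ, h', μ, hμ, -, -, hΓp, hΓ1, hΓs, hΓu, hc⟩ := h
  obtain ⟨h, rfl⟩ := QuotientGroup.mk'_surjective N h'
  set f := QuotientGroup.mk' N with hf
  have hfs : Function.Surjective f := QuotientGroup.mk'_surjective N
  obtain ⟨K', hK'⟩ : ∃ K' : Subgroup (X ⧸ N), K' = Γ.map (MonoidHom.fst _ _) := ⟨_, rfl⟩
  have hmK' : ∀ g ∈ Γ, g.1 ∈ K' := by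
    intro g hg
    rw [hK']; exact ⟨g, hg, rfl⟩
  have hK'p : IsPGroup p K' := by
    rintro ⟨x, hx⟩
    rw [hK'] at hx
    obtain ⟨g, hg, rfl⟩ := hx
    obtain ⟨k, hk⟩ := hΓp g hg
    exact ⟨k, Subtype.ext hk⟩
  set Y : Subgroup X := K'.comap f with hY
  have hhY : h ∈ Subgroup.normalizer (Y : Set X) := by
    apply mem_norm_of_le
    rw [cj_le_iff]
    intro y hy
    show f (h * y * h⁻¹) ∈ K'
    rw [map_mul, map_mul, map_inv]
    have hy' : f y ∈ K' := hy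
    rw [hK'] at hy'
    obtain ⟨g, hg, hgy⟩ := hy'
    have := hmK' _ (hc g hg)
    change f h * g.1 * (f h)⁻¹ ∈ K' at this
    change g.1 = f y at hgy
    rwa [hgy] at this
  obtain ⟨R, hR⟩ := IsSyl.exists (p := p) Y
  obtain ⟨n, hn, hnh⟩ := hR.frattini hhY
  have hRm : R.map f = K' := by
    have h1 := hR.map f
    have h2 : Y.map f = K' := Subgroup.map_comap_eq_self_of_surjective hfs _
    rw [h2] at h1
    exact (h1.eq_of_le h1.1 le_rfl hK'p).symm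
  obtain ⟨r, hr, hrn⟩ : ∃ r ∈ R, f r = f n := by
    have : f n ∈ R.map f := by rw [hRm]; exact hn
    exact this
  obtain ⟨m, hm⟩ : ∃ m : X, m = r⁻¹ * (n * h) := ⟨_, rfl⟩
  have hmR : m ∈ Subgroup.normalizer (R : Set X) := by
    rw [hm]; exact mul_mem (Subgroup.le_normalizer (inv_mem hr)) hnh
  have hfm : f m = f h := by
    rw [hm, map_mul, map_inv, map_mul, hrn, inv_mul_cancel_left]
  refine ⟨Γ.comap (f.prodMap (MonoidHom.id _)) ⊓ R.prod ⊤, m, μ, hμ, trivial, fun _ _ => trivial, ?_, ?_, ?_, ?_, ?_⟩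
  · rintro g ⟨-, hg⟩
    obtain ⟨k, hk⟩ := hR.2.1 ⟨g.1, hg.1⟩
    exact ⟨k, congrArg Subtype.val hk⟩
  · rintro g ⟨hg, -⟩ h1
    refine hΓ1 _ hg ?_
    show f g.1 = 1
    rw [h1, map_one]
  · intro i α β
    obtain ⟨x', hx'⟩ := hΓs i α β
    have h1 := hmK' _ hx'
    rw [← hRm] at h1
    obtain ⟨x, hx, hxx⟩ := h1
    refine ⟨x, ?_, hx, trivial⟩
    show (f x, uni p i α β) ∈ Γ
    change f x = x' at hxx
    rwa [hxx]
  · rintro g ⟨hg, -⟩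
    exact hΓu _ hg
  · rintro g ⟨hg, hgR⟩
    refine ⟨?_, (Subgroup.mem_normalizer_iff.1 hmR g.1).1 hgR.1, trivial⟩
    have h1 := hc _ hg
    show (f (m * g.1 * m⁻¹), tor p μ * g.2 * (tor p μ)⁻¹) ∈ Γ
    rw [map_mul, map_mul, map_inv, hfm]
    exact h1

theorem FX.ctl {X : Type*} [Group X] [Finite X] (S : Sylow p X)
    (H : Subgroup X) (hSH : (S : Subgroup X) ≤ H)
    (hctl : ∀ A ≤ (S : Subgroup X), ∀ g, cj g A ≤ (S : Subgroup X) → ∃ h ∈ H, ∀ a ∈ A,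
      g * a * g⁻¹ = h * a * h⁻¹) (h : FX p X) : FX p ↥H := by
  obtain ⟨Γ, h, μ, hμ, -, -, hΓp, hΓ1, hΓs, hΓu, hc⟩ := h
  obtain ⟨K, hK⟩ : ∃ K : Subgroup X, K = Γ.map (MonoidHom.fst _ _) := ⟨_, rfl⟩
  have hmK : ∀ g ∈ Γ, g.1 ∈ K := by
    intro g hg
    rw [hK]; exact ⟨g, hg, rfl⟩
  have hKp : IsPGroup p K := by
    rintro ⟨x, hx⟩
    rw [hK] at hx
    obtain ⟨g, hg, rfl⟩ := hx
    obtain ⟨k, hk⟩ := hΓp g hg
    exact ⟨k, Subtype.ext hk⟩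
  have hhK : cj h K ≤ K := by
    rw [cj_le_iff]
    intro x hx
    rw [hK] at hx
    obtain ⟨g, hg, rfl⟩ := hx
    exact hmK _ (hc g hg)
  obtain ⟨c, -, hcS⟩ := (isSyl_top S).conj_le (R := K) le_top hKp
  obtain ⟨m, hm, hmeq⟩ := hctl (cj c K) hcS (c * h * c⁻¹) (by
    rw [← cj_mul, show c * h * c⁻¹ * c = c * h by group, cj_mul]
    exact (cj_mono hhK).trans hcS)
  apply FIn.toSub
  refine ⟨Γ.map ((MulAut.conj c).toMonoidHom.prodMap (MonoidHom.id _)), m, μ, hμ, hm, ?_, ?_, ?_, ?_, ?_, ?_⟩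
  · rintro _ ⟨g, hg, rfl⟩
    exact hSH (hcS (conj_mem_cj (hmK g hg)))
  · rintro _ ⟨g, hg, rfl⟩
    obtain ⟨k, hk⟩ := hΓp _ hg
    refine ⟨k, ?_⟩
    show (c * g.1 * c⁻¹) ^ p ^ k = 1
    rw [conj_pow, hk]; group
  · rintro _ ⟨g, hg, rfl⟩ h1
    refine hΓ1 g hg ?_
    change c * g.1 * c⁻¹ = 1 at h1
    rw [mul_inv_eq_one] at h1
    exact mul_eq_left.1 h1
  · intro i α β
    obtain ⟨x, hx⟩ := hΓs i α β
    exact ⟨c * x * c⁻¹, _, hx, rfl⟩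
  · rintro _ ⟨g, hg, rfl⟩
    exact hΓu g hg
  · rintro _ ⟨g, hg, rfl⟩
    refine ⟨_, hc g hg, ?_⟩
    have h1 := hmeq _ (conj_mem_cj (hmK g hg))
    show (c * (h * g.1 * h⁻¹) * c⁻¹, tor p μ * g.2 * (tor p μ)⁻¹) =
      (m * (c * g.1 * c⁻¹) * m⁻¹, tor p μ * g.2 * (tor p μ)⁻¹)
    rw [← h1]
    congr 1
    group

end Cfsg.Agent.ZJFail
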