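import Cfsg.Agent.ZJFail.TR
/-!
Thompson's replacement for a tame subgroup whose normalizer does not contain a Sylow subgroup: end.
-/
set_option autoImplicit false
set_option linter.all false

namespace Cfsg.Agent.ZJFail

open Cfsg Cfsg.Agent.H33 Cfsg.Agent.QdInv
open scoped commutatorElement

universe u

section

variable {G : Type u} [Group G] [Finite G] {p : ℕ} [hp : Fact p.Prime]

theorem Qd_of_norm {V A : Subgroup G} (hA : ∀ x ∈ A, ∀ y ∈ A, x * y = y * x)
    (hVA : V ≤ Subgroup.normalizer (A : Set G)) {a : G} (ha : a ∈ A) : Qd V a := by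
  intro v hv
  have h1 := (Subgroup.mem_normalizer_iff.1 (hVA hv) a⁻¹).1 (inv_mem ha)
  have e : a * v * a⁻¹ * v⁻¹ = a * (v * a⁻¹ * v⁻¹) := by group
  rw [e]
  exact hA a ha _ (mul_mem ha h1)

theorem TR_main (hp2 : p ≠ 2) {R T U V : Subgroup G} (hT : IsPGroup p T) (hRT : R ≤ T)
    (hTR : T ≤ Subgroup.normalizer (R : Set G)) (hUR : U ≤ R) (hVU : V ≤ U)
    (hRU : R ≤ Subgroup.normalizer (U : Set G)) (hRV : R ≤ Subgroup.normalizer (V : Set G))
    (hUV : ∀ u ∈ U, ∀ v ∈ V, u * v = v * u) (hNU : T ⊓ Subgroup.normalizer (U : Set G) ≤ R)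
    (hq : ∀ a ∈ R, Qd V a → a ∈ U) :
    ∀ A ∈ ZJ.maxIn (fun A : Subgroup G => IsMulCommutative A) T, A ≤ U := by
  have hR : IsPGroup p R := isPGroup_sub hT hRT
  have hVc : ∀ a ∈ V, ∀ b ∈ V, a * b = b * a := fun a ha b hb => hUV a (hVU ha) b hb
  have hTR1 : ∀ x ∈ T, cj x V ≤ U := by
    intro x hx
    rw [cj_le_iff]
    intro y hy
    have hxR := hTR hx
    have haR : x * y * x⁻¹ ∈ R := (Subgroup.mem_normalizer_iff.1 hxR y).1 (hUR (hVU hy))
    apply hq _ haR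
    have hcc : ∀ a ∈ cj x V, ∀ b ∈ cj x V, a * b = b * a := comm_iff'.1 (ZJ.comm_map _ (comm_iff'.2 hVc))
    apply Qd_of_norm hcc ?_ (conj_mem_cj hy)
    -- `V` normalizes `cj x V`
    rw [← cj_normalizer]
    refine le_trans (hVU.trans hUR) ?_
    rw [← mem_norm_iff.1 hxR]
    exact cj_mono hRV
  have hTR2 : ∀ x ∈ T, x ∉ R → ¬ Qd V x := by
    intro x hx hxR hQ
    apply hxR
    apply hNU
    refine ⟨hx, ?_⟩
    have hxN := hTR hx
    have : x⁻¹ ∈ Subgroup.normalizer (U : Set G) := by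
      apply mem_norm_of_le
      rw [cj_le_iff]
      intro u hu
      rw [inv_inv]
      apply hq
      · have := (Subgroup.mem_normalizer_iff.1 (inv_mem hxN) u).1 (hUR hu)
        rwa [inv_inv] at this
      · exact quad_of_move hp2 hR hUR hVU hRV hUV hxN (hTR1 x hx) hQ hu
    have := inv_mem this
    rwa [inv_inv] at this
  obtain ⟨W, hW⟩ : ∃ W : Subgroup G, W = Subgroup.closure {y | ∃ x ∈ T, ∃ v ∈ V, y = x * v * x⁻¹} := ⟨_, rfl⟩
  have hVW : V ≤ W := by
    intro v hv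
    rw [hW]
    exact Subgroup.subset_closure ⟨1, one_mem _, v, hv, by group⟩
  have hWU : W ≤ U := by
    rw [hW, Subgroup.closure_le]
    rintro _ ⟨x, hx, v, hv, rfl⟩
    exact hTR1 x hx (conj_mem_cj hv)
  have hWc : ∀ a ∈ W, ∀ b ∈ W, a * b = b * a := by
    have h1 : ∀ a ∈ {y | ∃ x ∈ T, ∃ v ∈ V, y = x * v * x⁻¹}, ∀ b ∈ {y | ∃ x ∈ T, ∃ v ∈ V, y = x * v * x⁻¹},
        a * b = b * a := by
      rintro _ ⟨x, hx, v, hv, rfl⟩ _ ⟨y, hy, w, hw, rfl⟩
      have h2 : (y⁻¹ * x) * v * (y⁻¹ * x)⁻¹ ∈ U := hTR1 _ (mul_mem (inv_mem hy) hx) (conj_mem_cj hv)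
      have h3 := hUV _ h2 w hw
      calc x * v * x⁻¹ * (y * w * y⁻¹) = y * ((y⁻¹ * x) * v * (y⁻¹ * x)⁻¹ * w) * y⁻¹ := by group
        _ = y * (w * ((y⁻¹ * x) * v * (y⁻¹ * x)⁻¹)) * y⁻¹ := by rw [h3]
        _ = _ := by group
    have h2 : ∀ a ∈ {y | ∃ x ∈ T, ∃ v ∈ V, y = x * v * x⁻¹}, ∀ b ∈ W, a * b = b * a := by
      intro a ha b hb
      rw [hW] at hb
      induction hb using Subgroup.closure_induction with
      | mem b hb => exact h1 a ha b hb
      | one => rw [mul_one, one_mul]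
      | mul b c _ _ hb hc => exact (Commute.mul_right hb hc : Commute a (b * c))
      | inv b _ hb => exact (Commute.inv_right hb : Commute a b⁻¹)
    intro a ha b hb
    rw [hW] at ha
    induction ha using Subgroup.closure_induction with
    | mem a ha => exact h2 a ha b hb
    | one => rw [mul_one, one_mul]
    | mul a c _ _ ha hc => exact (Commute.mul_left ha hc : Commute (a * c) b)
    | inv a _ ha => exact (Commute.inv_left ha : Commute a⁻¹ b)
  have hTW : T ≤ Subgroup.normalizer (W : Set G) := by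
    intro t ht
    apply mem_norm_of_le
    rw [cj_le_iff]
    intro y hy
    rw [hW] at hy ⊢
    induction hy using Subgroup.closure_induction with
    | mem y hy =>
      obtain ⟨x, hx, v, hv, rfl⟩ := hy
      exact Subgroup.subset_closure ⟨t * x, mul_mem ht hx, v, hv, by group⟩
    | one => simp [Subgroup.one_mem]
    | mul a b _ _ ha hb =>
      have e : t * (a * b) * t⁻¹ = (t * a * t⁻¹) * (t * b * t⁻¹) := by group
      rw [e]; exact mul_mem ha hb
    | inv a _ ha =>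
      have e : t * a⁻¹ * t⁻¹ = (t * a * t⁻¹)⁻¹ := by group
      rw [e]; exact inv_mem ha
  have hWT : W ≤ T := hWU.trans (hUR.trans hRT)
  by_contra hcon
  push Not at hcon
  obtain ⟨A₀, hA₀, hA₀U⟩ := hcon
  obtain ⟨A, ⟨hA, hAU⟩, hmax⟩ := exists_max_nat
    {A : Subgroup G | A ∈ ZJ.maxIn (fun A : Subgroup G => IsMulCommutative A) T ∧ ¬ A ≤ U}
    (fun A => Nat.card (A ⊓ W : Subgroup G)) ⟨A₀, hA₀, hA₀U⟩
  have hAc : ∀ x ∈ A, ∀ y ∈ A, x * y = y * x := comm_iff'.1 hA.2.1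
  have hVA : ¬ V ≤ Subgroup.normalizer (A : Set G) := by
    intro hVA
    obtain ⟨a, ha, haU⟩ := Set.not_subset.1 hAU
    have hQ : Qd V a := Qd_of_norm hAc hVA ha
    by_cases haR : a ∈ R
    · exact haU (hq a haR hQ)
    · exact hTR2 a (hA.1 ha) haR hQ
  obtain ⟨A₁, h1, h2, h3, h4, h5⟩ := replacement_rel hp2 hT hWT hTW hA.1 hA.2.1 hWc
    (fun h => hVA (hVW.trans h))
  have hA₁ : A₁ ∈ ZJ.maxIn (fun A : Subgroup G => IsMulCommutative A) T :=
    ⟨h1, h2, fun B hB hBc => (hA.2.2 B hB hBc).trans h3⟩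
  have hA₁U : A₁ ≤ U := by
    by_contra h6
    have h7 := hmax A₁ ⟨hA₁, h6⟩
    have h8 := card_lt_card_of_lt h4
    omega
  apply hVA
  refine le_trans ?_ h5
  intro v hv
  apply ZJ.mem_of_maxIn_comm hA₁ (hWT (hVW hv))
  apply Subgroup.mem_centralizer_iff.2
  intro a ha
  exact hUV a (hA₁U ha) v hv

end

end Cfsg.Agent.ZJFail
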