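import Cfsg.Agent.ZJFail.Conf
import Cfsg.Agent.ZJFail.TR2
/-!
Existence of a quadratic element outside the bad subgroup.
-/
set_option autoImplicit false
set_option linter.all false

namespace Cfsg.Agent.ZJFail

open Cfsg Cfsg.Agent.H33 Cfsg.Agent.QdInv
open scoped commutatorElement

universe u

section

variable {G : Type u} [Group G] [Finite G] {p : ℕ} [hp : Fact p.Prime]

theorem Qd.map' {B : Subgroup G} {a : G} (h : Qd B a) {H : Type*} [Group H] (f : G →* H) : Qd (B.map f) (f a) := by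
  rintro _ ⟨b, hb, rfl⟩
  have := congrArg f (h b hb)
  simpa only [map_mul, map_inv] using this

theorem mem_norm_map {H : Type*} [Group H] (f : G →* H) {A : Subgroup G} {g : G}
    (h : g ∈ Subgroup.normalizer (A : Set G)) : f g ∈ Subgroup.normalizer (A.map f : Set H) :=
  Subgroup.le_normalizer_map f ⟨g, h, rfl⟩

namespace Cf

variable {S : Sylow p G} {Z U : Subgroup G}

theorem exists_quad (hp2 : p ≠ 2) (h : Cf S Z U) {B : Subgroup G} (hBU : B ≤ U)
    (hYB : Subgroup.normalizer (U : Set G) ≤ Subgroup.normalizer (B : Set G))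
    (hbad : ¬ Subgroup.normalizer (U : Set G) ≤ Subgroup.normalizer ((B ⊓ Z : Subgroup G) : Set G))
    (hmin : ∀ B' < B, Subgroup.normalizer (U : Set G) ≤ Subgroup.normalizer (B' : Set G) →
      Subgroup.normalizer (U : Set G) ≤ Subgroup.normalizer ((B' ⊓ Z : Subgroup G) : Set G))
    [hn : (⁅B, U⁆ : Subgroup G).Normal]
    (hZ : Z = sInf (ZJ.maxIn (fun A : Subgroup G => IsMulCommutative A) (S : Subgroup G)))
    (H0 : (S : Subgroup G) ≤ Subgroup.normalizer (U : Set G) → Subgroup.normalizer (U : Set G) = ⊤) :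
    ∃ a₀ ∈ nS (S : Subgroup G) U, a₀ ∉ U ∧
      Qd (B.map (QuotientGroup.mk' (⁅B, U⁆ : Subgroup G))) (QuotientGroup.mk' (⁅B, U⁆ : Subgroup G) a₀) := by
  obtain ⟨hB0, hB0c⟩ := h.B0 hBU hYB hbad hmin
  by_contra hno
  push Not at hno
  set f := QuotientGroup.mk' (⁅B, U⁆ : Subgroup G) with hf
  have hfs : Function.Surjective f := QuotientGroup.mk'_surjective _
  have hker : f.ker = ⁅B, U⁆ := QuotientGroup.ker_mk' _
  have hq : ∀ a ∈ nS (S : Subgroup G) U, Qd (B.map f) (f a) → a ∈ U := by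
    intro a ha hQ
    by_contra haU
    exact hno a ha haU hQ
  -- minimality
  have hcon : ∀ E : Subgroup G, E ≤ B → B ⊓ Z ≤ E →
      Subgroup.normalizer (U : Set G) ≤ Subgroup.normalizer (E : Set G) → E = B := by
    intro E h1 h2 h3
    by_contra h4
    apply hbad
    have h5 := hmin E (lt_of_le_of_ne h1 h4) h3
    have h6 : E ⊓ Z = B ⊓ Z := le_antisymm (inf_le_inf_right _ h1) (le_inf h2 inf_le_right)
    rwa [h6] at h5
  by_cases hRS : nS (S : Subgroup G) U = (S : Subgroup G)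
  · -- the case `R = S`
    have hSY : (S : Subgroup G) ≤ Subgroup.normalizer (U : Set G) := by
      rw [← hRS]; exact inf_le_right
    have hY := H0 hSY
    haveI hBn : B.Normal := by
      rw [← Subgroup.normalizer_eq_top_iff, eq_top_iff, ← hY]; exact hYB
    rw [hRS] at hq
    have hBS : B ≤ (S : Subgroup G) := hBU.trans h.hU
    obtain ⟨𝒜, h𝒜⟩ : ∃ 𝒜 : Set (Subgroup G), 𝒜 = ZJ.maxIn (fun A : Subgroup G => IsMulCommutative A) (S : Subgroup G) := ⟨_, rfl⟩
    rw [← h𝒜] at hZ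
    have hZA : ∀ A ∈ 𝒜, Z ≤ A := fun A hA => by rw [hZ]; exact sInf_le hA
    have hqA : ∀ A ∈ 𝒜, B ≤ Subgroup.normalizer (A : Set G) → A ≤ U := by
      intro A hA hBA a ha
      rw [h𝒜] at hA
      exact hq a (hA.1 ha) (Qd.map' (Qd_of_norm (comm_iff'.1 hA.2.1) hBA ha) f)
    have hrep : ∀ A ∈ 𝒜, ¬ B ≤ Subgroup.normalizer (A : Set G) → ∃ A₁ ∈ 𝒜, A ⊓ B < A₁ ⊓ B ∧
        A₁ ≤ Subgroup.normalizer (A : Set G) := by
      intro A hA hBA
      have hBB : ⁅B, B⁆ ≤ ⁅B, U⁆ := Subgroup.commutator_mono le_rfl hBU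
      have hA' := hA
      rw [h𝒜] at hA'
      obtain ⟨A₁, h1, h2, h3, h4, h5, -⟩ := ZJ.replacement hp2 S.2 hBS hA'.1 hA'.2.1
        (hBB.trans ((hB0.trans inf_le_right).trans (hZA A hA))) (by
          rw [eq_bot_iff, Subgroup.commutator_le]
          intro x hx y hy
          rw [Subgroup.mem_bot, commutatorElement_eq_one_iff_mul_comm]
          exact hB0c x (hBB hx) y hy) hBA
      refine ⟨A₁, ?_, h4, h5⟩
      rw [h𝒜]
      exact ⟨h1, h2, fun C hC hCc => (hA'.2.2 C hC hCc).trans h3⟩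
    have hne : 𝒜.Nonempty := by
      rw [h𝒜]
      exact ZJ.maxIn_nonempty _ (by infer_instance) _
    -- some member lies in `U`
    obtain ⟨A₀, hA₀, hA₀U⟩ : ∃ A ∈ 𝒜, A ≤ U := by
      obtain ⟨A, hA, hmax⟩ := exists_max_nat 𝒜 (fun A => Nat.card (A ⊓ B : Subgroup G)) hne
      refine ⟨A, hA, hqA A hA ?_⟩
      by_contra hBA
      obtain ⟨A₁, h1, h2, h3⟩ := hrep A hA hBA
      have h4 := hmax A₁ h1
      have h5 := card_lt_card_of_lt h2
      omega
    have hUeq : ZJ.maxIn (fun A : Subgroup G => IsMulCommutative A) U = {X | X ∈ 𝒜 ∧ X ≤ U} := by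
      rw [h𝒜] at hA₀ ⊢
      exact ZJ.maxIn_eq_of_mem h.hU hA₀ hA₀U
    obtain ⟨K, hK⟩ : ∃ K : Subgroup G, K = sInf (ZJ.maxIn (fun A : Subgroup G => IsMulCommutative A) U) := ⟨_, rfl⟩
    have hZK : Z ≤ K := by
      rw [hK, hUeq]
      exact le_sInf fun X hX => hZA X hX.1
    have hYK : Subgroup.normalizer (U : Set G) ≤ Subgroup.normalizer (K : Set G) := by
      rw [hK]
      exact ZJ.normalizer_le_normalizer_sInf ZJ.comm_conj U
    have hBK : B ≤ K := by
      have h1 : K ⊓ B = B := by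
        apply hcon _ inf_le_right (le_inf (inf_le_right.trans hZK) inf_le_left)
        intro y hy
        exact norm_inf (hYK hy) (hYB hy)
      rw [← h1]; exact inf_le_left
    have hall : ∀ A ∈ 𝒜, A ≤ U := by
      by_contra hc
      push Not at hc
      obtain ⟨A₁, hA₁, hA₁U⟩ := hc
      obtain ⟨A, ⟨hA, hAU⟩, hmax⟩ := exists_max_nat {A : Subgroup G | A ∈ 𝒜 ∧ ¬ A ≤ U}
        (fun A => Nat.card (A ⊓ B : Subgroup G)) ⟨A₁, hA₁, hA₁U⟩
      have hBA : ¬ B ≤ Subgroup.normalizer (A : Set G) := fun h1 => hAU (hqA A hA h1)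
      obtain ⟨A₂, h1, h2, h3⟩ := hrep A hA hBA
      have hA₂U : A₂ ≤ U := by
        by_contra h4
        have h5 := hmax A₂ ⟨h1, h4⟩
        have h6 := card_lt_card_of_lt h2
        omega
      apply hBA
      refine hBK.trans (le_trans ?_ h3)
      rw [hK, hUeq]
      exact sInf_le ⟨h1, hA₂U⟩
    have hKZ : K = Z := by
      rw [hK, hUeq, hZ]
      congr 1
      ext X
      exact ⟨fun hX => hX.1, fun hX => ⟨hX, hall X hX⟩⟩
    obtain ⟨y₀, hy₀, hb⟩ := h.bad
    apply hb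
    apply Ct.of_mem
    rw [← hKZ]
    exact hYK hy₀
  · -- the case `R < S`
    have hRlt : nS (S : Subgroup G) U < (S : Subgroup G) := lt_of_le_of_ne inf_le_left hRS
    obtain ⟨R, hR⟩ : ∃ R : Subgroup G, R = nS (S : Subgroup G) U := ⟨_, rfl⟩
    obtain ⟨T, hT⟩ : ∃ T : Subgroup G, T = (S : Subgroup G) ⊓ Subgroup.normalizer (R : Set G) := ⟨_, rfl⟩
    rw [← hR] at hq hRlt
    have hRT : R < T := by rw [hT]; exact lt_inf_normalizer S.2 hRlt
    have hRN : R ≤ Subgroup.normalizer (U : Set G) := by rw [hR]; exact inf_le_right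
    have hUR : U ≤ R := by rw [hR]; exact h.UR
    have hB0U : f.ker ≤ U := by rw [hker]; exact (hB0.trans inf_le_left).trans hBU
    have hUcomap : (U.map f).comap f = U := Subgroup.comap_map_eq_self hB0U
    have hall := TR_main (G := G ⧸ (⁅B, U⁆ : Subgroup G)) hp2 (R := R.map f) (T := T.map f) (U := U.map f)
      (V := B.map f) ((isPGroup_sub S.2 (by rw [hT]; exact inf_le_left) : IsPGroup p T).map f)
      (Subgroup.map_mono hRT.le) ((Subgroup.map_mono (by rw [hT]; exact inf_le_right)).trans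
        (Subgroup.le_normalizer_map f)) (Subgroup.map_mono hUR) (Subgroup.map_mono hBU)
      ((Subgroup.map_mono hRN).trans (Subgroup.le_normalizer_map f))
      ((Subgroup.map_mono (hRN.trans hYB)).trans (Subgroup.le_normalizer_map f)) (by
        rintro _ ⟨u, hu, rfl⟩ _ ⟨b, hb, rfl⟩
        have h1 : f ⁅b, u⁆ = 1 := (QuotientGroup.eq_one_iff _).2 (Subgroup.commutator_mem_commutator hb hu)
        rw [map_commutatorElement, commutatorElement_eq_one_iff_mul_comm] at h1
        exact h1.symm) (by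
        rintro _ ⟨⟨t, ht, rfl⟩, ht'⟩
        refine ⟨t, ?_, rfl⟩
        rw [hR]
        rw [hT] at ht
        refine ⟨ht.1, ?_⟩
        have h1 : t ∈ (Subgroup.normalizer ((U.map f : Subgroup (G ⧸ (⁅B, U⁆ : Subgroup G))) : Set (G ⧸ (⁅B, U⁆ : Subgroup G)))).comap f := ht'
        rw [Subgroup.comap_normalizer_eq_of_surjective _ hfs, hUcomap] at h1
        exact h1) (by
        rintro _ ⟨a, ha, rfl⟩ hQ
        exact ⟨a, hq a ha hQ, rfl⟩)
    have hTS : T ≤ (S : Subgroup G) := by rw [hT]; exact inf_le_left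
    have hUT : U ≤ T := hUR.trans hRT.le
    obtain ⟨A₀, hA₀⟩ := ZJ.maxIn_nonempty (fun A : Subgroup (G ⧸ (⁅B, U⁆ : Subgroup G)) => IsMulCommutative A)
      (by infer_instance) (T.map f)
    have hUeq := ZJ.maxIn_eq_of_mem (Subgroup.map_mono hUT : U.map f ≤ T.map f) hA₀ (hall A₀ hA₀)
    have hUeq' : ZJ.maxIn (fun A : Subgroup (G ⧸ (⁅B, U⁆ : Subgroup G)) => IsMulCommutative A) (U.map f) =
        ZJ.maxIn (fun A : Subgroup (G ⧸ (⁅B, U⁆ : Subgroup G)) => IsMulCommutative A) (T.map f) := by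
      rw [hUeq]
      ext X
      exact ⟨fun hX => hX.1, fun hX => ⟨hX, hall X hX⟩⟩
    obtain ⟨K', hK'⟩ : ∃ K' : Subgroup (G ⧸ (⁅B, U⁆ : Subgroup G)), K' =
      sInf (ZJ.maxIn (fun A : Subgroup (G ⧸ (⁅B, U⁆ : Subgroup G)) => IsMulCommutative A) (U.map f)) := ⟨_, rfl⟩
    have hYK' : Subgroup.normalizer ((U.map f : Subgroup (G ⧸ (⁅B, U⁆ : Subgroup G))) : Set (G ⧸ (⁅B, U⁆ : Subgroup G))) ≤
        Subgroup.normalizer (K' : Set (G ⧸ (⁅B, U⁆ : Subgroup G))) := by
      rw [hK']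
      exact ZJ.normalizer_le_normalizer_sInf ZJ.comm_conj _
    have hTK' : Subgroup.normalizer ((T.map f : Subgroup (G ⧸ (⁅B, U⁆ : Subgroup G))) : Set (G ⧸ (⁅B, U⁆ : Subgroup G))) ≤
        Subgroup.normalizer (K' : Set (G ⧸ (⁅B, U⁆ : Subgroup G))) := by
      rw [hK', hUeq']
      exact ZJ.normalizer_le_normalizer_sInf ZJ.comm_conj _
    have hK'U : K' ≤ U.map f := by
      rw [hK', hUeq']
      exact (sInf_le hA₀).trans (hall A₀ hA₀)
    have hBK' : B.map f ≤ K' := by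
      rw [hK']
      apply le_sInf
      intro X hX
      rintro _ ⟨b, hb, rfl⟩
      apply ZJ.mem_of_maxIn_comm hX ⟨b, hBU hb, rfl⟩
      apply Subgroup.mem_centralizer_iff.2
      intro x hx
      obtain ⟨u, hu, rfl⟩ := hX.1 hx
      have h1 : f ⁅b, u⁆ = 1 := (QuotientGroup.eq_one_iff _).2 (Subgroup.commutator_mem_commutator hb hu)
      rw [map_commutatorElement, commutatorElement_eq_one_iff_mul_comm] at h1
      exact h1.symm
    obtain ⟨K, hK⟩ : ∃ K : Subgroup G, K = K'.comap f := ⟨_, rfl⟩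
    have hKU : K ≤ U := by
      rw [hK]
      exact (Subgroup.comap_mono hK'U).trans hUcomap.le
    have hBK : B ≤ K := by
      rw [hK]
      exact Subgroup.map_le_iff_le_comap.1 hBK'
    have hnK : ∀ y : G, f y ∈ Subgroup.normalizer (K' : Set (G ⧸ (⁅B, U⁆ : Subgroup G))) →
        y ∈ Subgroup.normalizer (K : Set G) := by
      intro y hy
      have h1 : y ∈ (Subgroup.normalizer (K' : Set (G ⧸ (⁅B, U⁆ : Subgroup G)))).comap f := hy
      rw [Subgroup.comap_normalizer_eq_of_surjective _ hfs] at h1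
      rw [hK]; exact h1
    have hct := h.nb K (hKU.trans h.hU) (Or.inl (by
      rw [← hR]
      refine lt_of_lt_of_le (card_lt_card_of_lt hRT) (Subgroup.card_le_of_le (le_inf hTS ?_))
      intro t ht
      apply hnK
      apply hTK'
      exact Subgroup.le_normalizer ⟨t, ht, rfl⟩))
    apply hbad
    intro y hy
    apply ct_norm hBK (hYB hy) (hct y ?_)
    apply hnK
    apply hYK'
    exact mem_norm_map f hy

end Cf

end

end Cfsg.Agent.ZJFail
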