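import Cfsg.Agent.ZJFail.Alp
import Cfsg.Agent.ZJ.Replacement
import Cfsg.Agent.ZJ.Bridge
/-!
Thompson's replacement for a tame subgroup whose normalizer does not contain a Sylow subgroup.
-/
set_option autoImplicit false
set_option linter.all false

namespace Cfsg.Agent.ZJFail

open Cfsg Cfsg.Agent.H33 Cfsg.Agent.QdInv
open scoped commutatorElement

universe u

section

variable {G : Type u} [Group G] [Finite G] {p : ℕ} [hp : Fact p.Prime]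

theorem comm_iff' {A : Subgroup G} : IsMulCommutative A ↔ ∀ x ∈ A, ∀ y ∈ A, x * y = y * x := by
  constructor
  · intro h x hx y hy
    exact congrArg Subtype.val (h.is_comm.comm ⟨x, hx⟩ ⟨y, hy⟩)
  · intro h
    exact ⟨⟨fun x y => Subtype.ext (h x x.2 y y.2)⟩⟩

theorem replacement_rel (hp2 : p ≠ 2) {T B A : Subgroup G} (hT : IsPGroup p T) (hBT : B ≤ T)
    (hTB : T ≤ Subgroup.normalizer (B : Set G)) (hAT : A ≤ T) (hA : IsMulCommutative A)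
    (hB : ∀ x ∈ B, ∀ y ∈ B, x * y = y * x) (hn : ¬ B ≤ Subgroup.normalizer (A : Set G)) :
    ∃ A₁ : Subgroup G, A₁ ≤ T ∧ IsMulCommutative A₁ ∧ Nat.card A ≤ Nat.card A₁ ∧
      A ⊓ B < A₁ ⊓ B ∧ A₁ ≤ Subgroup.normalizer (A : Set G) := by
  haveI hBn : (B.subgroupOf T).Normal := by
    refine ⟨fun x hx t => ?_⟩
    rw [Subgroup.mem_subgroupOf] at hx ⊢
    exact (Subgroup.mem_normalizer_iff.1 (hTB t.2) _).1 hx
  have hA' : ∀ x ∈ A, ∀ y ∈ A, x * y = y * x := comm_iff'.1 hA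
  have hBB : ⁅B.subgroupOf T, B.subgroupOf T⁆ = ⊥ := by
    rw [eq_bot_iff, Subgroup.commutator_le]
    intro x hx y hy
    rw [Subgroup.mem_bot, commutatorElement_eq_one_iff_mul_comm]
    exact Subtype.ext (hB _ hx _ hy)
  have hBm : (B.subgroupOf T).map T.subtype = B := by
    rw [Subgroup.subgroupOf_map_subtype, inf_eq_left]; exact hBT
  have hAm : (A.subgroupOf T).map T.subtype = A := by
    rw [Subgroup.subgroupOf_map_subtype, inf_eq_left]; exact hAT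
  obtain ⟨A₁, h1, h2, h3, h4, h5, -⟩ := ZJ.replacement (G := ↥T) hp2 (S := ⊤) (B := B.subgroupOf T)
    (A := A.subgroupOf T) (hT.of_equiv Subgroup.topEquiv.symm) le_top le_top (comm_iff'.2 (by
      intro x hx y hy
      exact Subtype.ext (hA' _ hx _ hy))) (by rw [hBB]; exact bot_le) (by
      rw [hBB]
      exact Subgroup.commutator_bot_left _) (by
      intro h
      apply hn
      rw [← hBm, ← hAm]
      exact (Subgroup.map_mono h).trans (Subgroup.le_normalizer_map _))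
  have hcA : Nat.card (A.subgroupOf T) = Nat.card A := by
    rw [← hAm]
    nth_rewrite 1 [hAm]
    exact (Nat.card_congr ((A.subgroupOf T).equivMapOfInjective T.subtype T.subtype_injective).toEquiv)
  refine ⟨A₁.map T.subtype, Subgroup.map_subtype_le _, ?_, ?_, ?_, ?_⟩
  · exact ZJ.comm_map _ h2
  · rw [ZJ.card_map_subtype, ← hcA]; exact h3
  · have h6 : (A.subgroupOf T ⊓ B.subgroupOf T).map T.subtype < (A₁ ⊓ B.subgroupOf T).map T.subtype := by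
      refine lt_of_le_of_ne (Subgroup.map_mono h4.le) ?_
      intro h7
      exact h4.ne (Subgroup.map_injective T.subtype_injective h7)
    rw [Subgroup.map_inf _ _ _ T.subtype_injective, Subgroup.map_inf _ _ _ T.subtype_injective, hBm, hAm] at h6
    exact h6
  · have h6 := (Subgroup.map_mono (f := T.subtype) h5).trans (Subgroup.le_normalizer_map _)
    rwa [hAm] at h6

/-- quadratic action of `a` on the abelian group `V` (which need not be normalized) -/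
def Qd (V : Subgroup G) (a : G) : Prop := ∀ v ∈ V, a * (a * v * a⁻¹ * v⁻¹) = (a * v * a⁻¹ * v⁻¹) * a

/-- The key computation: a quadratic element moving `V` gives quadratic action of `U`. -/
theorem quad_of_move (hp2 : p ≠ 2) {R U V : Subgroup G} (hR : IsPGroup p R) (hUR : U ≤ R) (hVU : V ≤ U)
    (hRV : R ≤ Subgroup.normalizer (V : Set G)) (hUV : ∀ u ∈ U, ∀ v ∈ V, u * v = v * u) {x : G}
    (hxR : x ∈ Subgroup.normalizer (R : Set G)) (hxV : cj x V ≤ U) (hq : Qd V x) {u : G} (hu : u ∈ U) :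
    Qd V (x⁻¹ * u * x) := by
  intro v hv
  -- conjugate by `x`
  suffices h : u * (u * (x * v * x⁻¹) * u⁻¹ * (x * v * x⁻¹)⁻¹) =
      (u * (x * v * x⁻¹) * u⁻¹ * (x * v * x⁻¹)⁻¹) * u by
    have e1 : x⁻¹ * u * x * (x⁻¹ * u * x * v * (x⁻¹ * u * x)⁻¹ * v⁻¹) =
      x⁻¹ * (u * (u * (x * v * x⁻¹) * u⁻¹ * (x * v * x⁻¹)⁻¹)) * x := by group
    have e2 : x⁻¹ * u * x * v * (x⁻¹ * u * x)⁻¹ * v⁻¹ * (x⁻¹ * u * x) =
      x⁻¹ * ((u * (x * v * x⁻¹) * u⁻¹ * (x * v * x⁻¹)⁻¹) * u) * x := by group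
    rw [e1, e2, h]
  -- the abelian group `W = V ⊔ V^x`
  obtain ⟨W, hW⟩ : ∃ W : Subgroup G, W = V ⊔ cj x V := ⟨_, rfl⟩
  have hWU : W ≤ U := by rw [hW]; exact sup_le hVU hxV
  have hVc : ∀ a ∈ V, ∀ b ∈ V, a * b = b * a := fun a ha b hb => hUV a (hVU ha) b hb
  have hWc : ∀ a ∈ W, ∀ b ∈ W, a * b = b * a := by
    have : IsMulCommutative W := by
      rw [hW]
      refine H11.comm_sup (comm_iff'.2 hVc) (ZJ.comm_map _ (comm_iff'.2 hVc)) ?_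
      intro a ha b hb
      exact (hUV b (hxV hb) a ha).symm
    exact comm_iff'.1 this
  have hVW : V ≤ W := by rw [hW]; exact le_sup_left
  have hVxW : cj x V ≤ W := by rw [hW]; exact le_sup_right
  -- `c = δ v`
  let δ : G → G := fun v => x * v * x⁻¹ * v⁻¹
  have hδ : ∀ v, δ v = x * v * x⁻¹ * v⁻¹ := fun v => rfl
  have hδW : ∀ v ∈ V, δ v ∈ W := fun v hv => mul_mem (hVxW (conj_mem_cj hv)) (inv_mem (hVW hv))
  have hxv : ∀ v, x * v * x⁻¹ = δ v * v := by intro v; rw [hδ]; group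
  have hδq : ∀ v ∈ V, x * δ v * x⁻¹ = δ v := by
    intro v hv
    have := hq v hv
    rw [← hδ] at this
    rw [this]; group
  have hxxv : ∀ v ∈ V, x * (x * v * x⁻¹) * x⁻¹ = δ v * (δ v * v) := by
    intro v hv
    rw [hxv v]
    calc x * (δ v * v) * x⁻¹ = (x * δ v * x⁻¹) * (x * v * x⁻¹) := by group
      _ = _ := by rw [hδq v hv, hxv v]
  -- `u` normalizes `V^x` and `V^{xx}`
  have huR : u ∈ R := hUR hu
  have hun : ∀ y ∈ Subgroup.normalizer (R : Set G), u ∈ Subgroup.normalizer (cj y V : Set G) := by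
    intro y hy
    rw [← cj_normalizer]
    apply cj_mono hRV
    rw [mem_norm_iff.1 hy]; exact huR
  have huv : ∀ v ∈ V, u * v * u⁻¹ = v := by
    intro v hv
    rw [hUV u hu v hv]; group
  obtain ⟨c, hc⟩ : ∃ c : G, c = δ v := ⟨_, rfl⟩
  have hcW : c ∈ W := by rw [hc]; exact hδW v hv
  obtain ⟨C, hC⟩ : ∃ C : G, C = u * c * u⁻¹ := ⟨_, rfl⟩
  -- first relation
  obtain ⟨v₂, hv₂, e₂⟩ : ∃ v₂ ∈ V, C * v = δ v₂ * v₂ := by
    have h1 := (Subgroup.mem_normalizer_iff.1 (hun x hxR) _).1 (conj_mem_cj (g := x) hv)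
    obtain ⟨v₂, hv₂, e⟩ := h1
    refine ⟨v₂, hv₂, ?_⟩
    have e' : x * v₂ * x⁻¹ = u * (x * v * x⁻¹) * u⁻¹ := e
    rw [← hxv v₂, e', hxv v, ← hc, hC]
    calc u * c * u⁻¹ * v = u * c * u⁻¹ * (u * v * u⁻¹) := by rw [huv v hv]
      _ = _ := by group
  obtain ⟨v₁, hv₁, e₁⟩ : ∃ v₁ ∈ V, C * (C * v) = δ v₁ * (δ v₁ * v₁) := by
    have h0 : x * (x * v * x⁻¹) * x⁻¹ ∈ cj (x * x) V := by
      rw [cj_mul]; exact conj_mem_cj (conj_mem_cj hv)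
    have h1 := (Subgroup.mem_normalizer_iff.1 (hun (x * x) (mul_mem hxR hxR)) _).1 h0
    rw [cj_mul] at h1
    obtain ⟨_, ⟨v₁, hv₁, rfl⟩, e⟩ := h1
    refine ⟨v₁, hv₁, ?_⟩
    have e' : x * (x * v₁ * x⁻¹) * x⁻¹ = u * (x * (x * v * x⁻¹) * x⁻¹) * u⁻¹ := e
    rw [← hxxv v₁ hv₁, e', hxxv v hv, ← hc, hC]
    calc u * c * u⁻¹ * (u * c * u⁻¹ * v) = u * c * u⁻¹ * (u * c * u⁻¹ * (u * v * u⁻¹)) := by rw [huv v hv]
      _ = _ := by group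
  -- move to the commutative group `W`
  have hCW : C ∈ W := by
    have h1 : C = (δ v₂ * v₂) * v⁻¹ := by rw [← e₂]; group
    rw [h1]
    exact mul_mem (mul_mem (hδW v₂ hv₂) (hVW hv₂)) (inv_mem (hVW hv))
  obtain ⟨d, hd⟩ : ∃ d : G, d = δ v₁ * (δ v₂)⁻¹ := ⟨_, rfl⟩
  letI : CommGroup ↥W := { mul_comm := fun a b => Subtype.ext (hWc a a.2 b b.2) }
  -- `δ` is multiplicative on `V`
  have hδmul : ∀ a ∈ V, ∀ b ∈ V, δ (a * b) = δ a * δ b := by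
    intro a ha b hb
    have h1 : δ (a * b) = (x * a * x⁻¹) * (x * b * x⁻¹) * (b⁻¹ * a⁻¹) := by rw [hδ]; group
    rw [h1, hxv a, hxv b]
    have h2 := hWc _ (hVW ha) _ (mul_mem (hδW b hb) (hVW hb))
    have h3 := hWc _ (hVW ha) _ (hVW hb)
    calc δ a * a * (δ b * b) * (b⁻¹ * a⁻¹) = δ a * (a * (δ b * b)) * (b⁻¹ * a⁻¹) := by group
      _ = δ a * (δ b * b * a) * (b⁻¹ * a⁻¹) := by rw [h2]
      _ = δ a * δ b * (b * a) * (b⁻¹ * a⁻¹) := by group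
      _ = δ a * δ b * (a * b) * (b⁻¹ * a⁻¹) := by rw [h3]
      _ = _ := by group
  have hδ1 : δ 1 = 1 := by rw [hδ]; group
  have hδinv : ∀ a ∈ V, δ a⁻¹ = (δ a)⁻¹ := by
    intro a ha
    have h1 := hδmul a ha a⁻¹ (inv_mem ha)
    rw [mul_inv_cancel, hδ1] at h1
    exact (inv_eq_of_mul_eq_one_right h1.symm).symm
  -- elements of `W`
  obtain ⟨C', hC'⟩ : ∃ C' : ↥W, (C' : G) = C := ⟨⟨C, hCW⟩, rfl⟩
  obtain ⟨V', hV'⟩ : ∃ V' : ↥W, (V' : G) = v := ⟨⟨v, hVW hv⟩, rfl⟩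
  obtain ⟨V₁, hV₁⟩ : ∃ V' : ↥W, (V' : G) = v₁ := ⟨⟨v₁, hVW hv₁⟩, rfl⟩
  obtain ⟨V₂, hV₂⟩ : ∃ V' : ↥W, (V' : G) = v₂ := ⟨⟨v₂, hVW hv₂⟩, rfl⟩
  obtain ⟨D₁, hD₁⟩ : ∃ V' : ↥W, (V' : G) = δ v₁ := ⟨⟨δ v₁, hδW v₁ hv₁⟩, rfl⟩
  obtain ⟨D₂, hD₂⟩ : ∃ V' : ↥W, (V' : G) = δ v₂ := ⟨⟨δ v₂, hδW v₂ hv₂⟩, rfl⟩
  have E₂ : C' * V' = D₂ * V₂ := Subtype.ext (by
    show (C' : G) * V' = D₂ * V₂; rw [hC', hV', hD₂, hV₂, e₂])
  have E₁ : C' * (C' * V') = D₁ * (D₁ * V₁) := Subtype.ext (by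
    show (C' : G) * (C' * V') = D₁ * (D₁ * V₁); rw [hC', hV', hD₁, hV₁, e₁])
  have EC : C' = D₂ * V₂ * V'⁻¹ := eq_mul_inv_of_mul_eq E₂
  have E₃ : (D₁ * D₂⁻¹) * (D₁ * D₂⁻¹) = V₂ * V₂ * V'⁻¹ * V₁⁻¹ := by
    have h1 : D₂ * V₂ * V'⁻¹ * (D₂ * V₂) = D₁ * (D₁ * V₁) := by
      rw [← E₁, E₂, EC]
    calc (D₁ * D₂⁻¹) * (D₁ * D₂⁻¹) = (D₁ * (D₁ * V₁)) * V₁⁻¹ * D₂⁻¹ * D₂⁻¹ := by
          rw [mul_mul_mul_comm, ← mul_assoc D₁ D₁ V₁, mul_inv_cancel_right, mul_assoc (D₁ * D₁)]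
      _ = (D₂ * V₂ * V'⁻¹ * (D₂ * V₂)) * V₁⁻¹ * D₂⁻¹ * D₂⁻¹ := by rw [h1]
      _ = (D₂ * D₂⁻¹) * (D₂ * D₂⁻¹) * (V₂ * V₂ * V'⁻¹ * V₁⁻¹) := by
          simp only [mul_comm, mul_left_comm, mul_assoc]
      _ = _ := by rw [mul_inv_cancel, one_mul, one_mul]
  -- `d * d ∈ V`
  have hdd : d * d = v₂ * v₂ * v⁻¹ * v₁⁻¹ := by
    have := congrArg (fun t : ↥W => (t : G)) E₃
    change (D₁ : G) * (D₂ : G)⁻¹ * ((D₁ : G) * (D₂ : G)⁻¹) = (V₂ : G) * V₂ * (V' : G)⁻¹ * (V₁ : G)⁻¹ at this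
    rw [hD₁, hD₂, hV₂, hV', hV₁] at this
    rw [hd]; exact this
  have hddV : d * d ∈ V := by
    rw [hdd]
    exact mul_mem (mul_mem (mul_mem hv₂ hv₂) (inv_mem hv)) (inv_mem hv₁)
  have hdW : d ∈ W := by rw [hd]; exact mul_mem (hδW v₁ hv₁) (inv_mem (hδW v₂ hv₂))
  have hdV : d ∈ V := by
    obtain ⟨k, hk⟩ := hR ⟨d, hUR (hWU hdW)⟩
    have hk' : d ^ p ^ k = 1 := congrArg Subtype.val hk
    obtain ⟨j, hj⟩ := (hp.out.odd_of_ne_two hp2).pow (n := k)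
    rw [hj, pow_succ, pow_mul, pow_two] at hk'
    have h1 : d = ((d * d) ^ j)⁻¹ := eq_inv_of_mul_eq_one_right hk'
    rw [h1]; exact inv_mem (pow_mem hddV j)
  -- apply `δ`
  have hδd : δ d = 1 := by
    have h1 : d = δ (v₁ * v₂⁻¹) := by
      rw [hδmul _ hv₁ _ (inv_mem hv₂), hδinv _ hv₂, hd]
    have h2 := hδq (v₁ * v₂⁻¹) (mul_mem hv₁ (inv_mem hv₂))
    rw [← h1] at h2
    rw [hδ, h2, mul_inv_cancel]
  have hδdd : δ (d * d) = 1 := by rw [hδmul _ hdV _ hdV, hδd, one_mul]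
  have hrel : δ v₂ * δ v₂ * c⁻¹ * (δ v₁)⁻¹ = 1 := by
    rw [hdd, hδmul _ (mul_mem (mul_mem hv₂ hv₂) (inv_mem hv)) _ (inv_mem hv₁),
      hδmul _ (mul_mem hv₂ hv₂) _ (inv_mem hv), hδmul _ hv₂ _ hv₂, hδinv _ hv, hδinv _ hv₁, ← hc] at hδdd
    exact hδdd
  -- `δ v₂ * c⁻¹ = d`
  have hdc : δ v₂ * c⁻¹ = d := by
    have h1 : δ v₂ * δ v₂ * c⁻¹ = δ v₁ := by
      have := mul_inv_eq_one.1 hrel
      exact this
    have h2 := hWc _ (hδW v₂ hv₂) _ (mul_mem (hδW v₂ hv₂) (inv_mem hcW))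
    calc δ v₂ * c⁻¹ = (δ v₂ * c⁻¹) * δ v₂ * (δ v₂)⁻¹ := by group
      _ = δ v₂ * (δ v₂ * c⁻¹) * (δ v₂)⁻¹ := by rw [h2]
      _ = (δ v₂ * δ v₂ * c⁻¹) * (δ v₂)⁻¹ := by group
      _ = d := by rw [h1, hd]
  -- the commutator lies in `V`
  have hfin : u * (x * v * x⁻¹) * u⁻¹ * (x * v * x⁻¹)⁻¹ = d * (v₂ * v⁻¹) := by
    have h1 : u * (x * v * x⁻¹) * u⁻¹ = C * v := by
      rw [hxv v, ← hc, hC]
      calc u * (c * v) * u⁻¹ = u * c * u⁻¹ * (u * v * u⁻¹) := by group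
        _ = _ := by rw [huv v hv]
    rw [h1, e₂, hxv v, ← hc]
    have h2 := hWc _ (mul_mem (hVW hv₂) (inv_mem (hVW hv))) _ (inv_mem hcW)
    calc δ v₂ * v₂ * (c * v)⁻¹ = δ v₂ * (v₂ * v⁻¹ * c⁻¹) := by group
      _ = δ v₂ * (c⁻¹ * (v₂ * v⁻¹)) := by rw [h2]
      _ = (δ v₂ * c⁻¹) * (v₂ * v⁻¹) := by group
      _ = _ := by rw [hdc]
  rw [hfin]
  exact hUV u hu _ (mul_mem hdV (mul_mem hv₂ (inv_mem hv)))

end

end Cfsg.Agent.ZJFail
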